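import Cfsg.Statements.S0025
import Cfsg.Agent.Lib.H1.Coprime

set_option autoImplicit false
open Cfsg

namespace Cfsg.Agent.S0025

/-- Under coprime action (A normalising K, coprime orders, A or K solvable), an A-invariant p-subgroup of K is contained in an A-invariant Sylow p-subgroup of K. -/
theorem result {G : Type*} [Group G] [Finite G] (A K : Subgroup G) (hAK : A ≤ Subgroup.normalizer (K : Set G))
    (hcop : (Nat.card A).Coprime (Nat.card K)) (hsolv : Group.IsSolvable A ∨ Group.IsSolvable K)
    (p : ℕ) [Fact p.Prime] (U : Subgroup G) (hUK : U ≤ K) (hU : IsPGroup p U) (hUA : A ≤ Subgroup.normalizer (U : Set G)) :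
    ∃ P : Sylow p K, U ≤ (P : Subgroup K).map K.subtype ∧ A ≤ Subgroup.normalizer ((P : Subgroup K).map K.subtype : Set G) := by
  obtain ⟨P, hP, hUP, hA⟩ := Cfsg.Agent.H1.exists_isSylowIn_invariant_ge hAK hcop hsolv hUK hU hUA
  obtain ⟨S, rfl⟩ := hP.exists_sylow
  exact ⟨S, hUP, by simpa using hA⟩

end Cfsg.Agent.S0025
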