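import Cfsg.Statements.S0031
import Cfsg.Agent.Lib.H1.Frattini

set_option autoImplicit false
open Cfsg
open scoped Pointwise

namespace Cfsg.Agent.S0031

/-- A fixed-point-free automorphism of a finite group maps some Sylow p-subgroup to itself. -/
theorem result {G : Type*} [Group G] [Finite G] (φ : G ≃* G)
    (hφ : MonoidHom.FixedPointFree (φ : G →* G)) (p : ℕ) [Fact p.Prime] :
    ∃ P : Sylow p G, (P : Subgroup G).map (φ : G →* G) = P := by
  let P : Sylow p G := default
  obtain ⟨g, hg⟩ := MulAction.exists_smul_eq G ((φ : MulAut G) • P) P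
  obtain ⟨x, hx⟩ := hφ.commutatorMap_surjective g
  refine ⟨x⁻¹ • P, ?_⟩
  have h1 : (P : Subgroup G).map (φ : G →* G) = MulAut.conj g⁻¹ • (P : Subgroup G) := by
    have := congrArg (fun Q : Sylow p G => MulAut.conj g⁻¹ • (Q : Subgroup G)) hg
    simp only [Sylow.coe_subgroup_smul, Cfsg.Agent.H1.conj_smul_conj_smul, inv_mul_cancel,
      map_one, one_smul] at this
    exact this
  rw [Sylow.coe_subgroup_smul, Cfsg.Agent.H1.map_conj_smul, h1, Cfsg.Agent.H1.conj_smul_conj_smul,
    ← hx]
  simp [div_eq_mul_inv]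

end Cfsg.Agent.S0031
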