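import Cfsg.Statements.S0032
import Cfsg.Agent.Lib.H1.Frattini

set_option autoImplicit false
open Cfsg

namespace Cfsg.Agent.S0032

/-- If an automorphism of a finite group fixes only the identity and maps a normal subgroup N into itself, then the only cosets of N it fixes are those in N: a fixed coset xN forces x ∈ N. -/
theorem result {G : Type*} [Group G] [Finite G] (φ : G ≃* G)
    (hφ : MonoidHom.FixedPointFree (φ : G →* G)) (N : Subgroup G) [N.Normal] (hN : ∀ n ∈ N, φ n ∈ N)
    (x : G) (hx : (φ x)⁻¹ * x ∈ N) : x ∈ N := by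
  let f : N → N := fun n => ⟨(φ n)⁻¹ * n, mul_mem (inv_mem (hN n n.2)) n.2⟩
  have hinj : ∀ a b : G, (φ a)⁻¹ * a = (φ b)⁻¹ * b → a = b := by
    intro a b h
    have h2 : φ (b * a⁻¹) = b * a⁻¹ := by
      rw [map_mul, map_inv]
      calc φ b * (φ a)⁻¹ = φ b * ((φ a)⁻¹ * a) * a⁻¹ := by group
        _ = φ b * ((φ b)⁻¹ * b) * a⁻¹ := by rw [h]
        _ = _ := by group
    exact (mul_inv_eq_one.1 (hφ _ h2)).symm
  have hf : Function.Injective f := fun a b h =>
    Subtype.ext (hinj _ _ (congrArg Subtype.val h))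
  obtain ⟨n, hn⟩ := Finite.surjective_of_injective hf ⟨_, hx⟩
  rw [← hinj n x (congrArg Subtype.val hn)]
  exact n.2

end Cfsg.Agent.S0032
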