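import Cfsg.Statements.S0038
import Cfsg.Agent.Lib.H2.FrobCompl

set_option autoImplicit false
open Pointwise
open Cfsg

namespace Cfsg.Agent.S0038

/-- All Frobenius complements of a finite group are conjugate to one another. -/
theorem result {G : Type*} [Group G] [Finite G] (H H₀ : Subgroup G)
    (hH : Cfsg.IsFrobeniusComplement H) (hH₀ : Cfsg.IsFrobeniusComplement H₀) :
    ∃ g : G, MulAut.conj g • H₀ = H := by
  exact H2.frob_exists_conj_eq H H₀ hH hH₀

end Cfsg.Agent.S0038
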