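import Cfsg.Statements.S0042
import Cfsg.Agent.S0035
import Cfsg.Agent.Lib.H2.Frob
import Cfsg.Agent.Lib.H1.Fpf

set_option autoImplicit false
open Cfsg

namespace Cfsg.Agent.S0042

/-- In a finite Frobenius group, the Frobenius kernel is (the carrier of) a normal subgroup which is nilpotent. -/
theorem result {G : Type*} [Group G] [Finite G] (H : Subgroup G) (hH : Cfsg.IsFrobeniusComplement H) :
    ∃ N : Subgroup G, (N : Set G) = Cfsg.frobeniusKernel H ∧ N.Normal ∧ Group.IsNilpotent N := by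
  obtain ⟨N, h1, h2, h3⟩ := S0035.result H hH
  refine ⟨N, h1, h2, ?_⟩
  by_cases hN : N = ⊥
  · subst hN; infer_instance
  have h4 := (H2.frob_iff_fpf N H h3 hN hH.1).1 hH
  obtain ⟨r, hr, hd⟩ := Nat.exists_prime_and_dvd (n := Nat.card H) (by
    rw [Ne, Subgroup.card_eq_one]; exact hH.1)
  have := Fact.mk hr
  obtain ⟨⟨h, hh⟩, ho⟩ := exists_prime_orderOf_dvd_card' r hd
  have ho' : orderOf h = r := by rw [← ho]; exact (Subgroup.orderOf_mk h hh).symm
  have hh1 : h ≠ 1 := by rintro rfl; rw [orderOf_one] at ho'; exact hr.one_lt.ne ho'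
  have hf : ∀ x : N, MulAut.conjNormal h x = x → x = 1 := fun x hx => Subtype.ext
    (H2.eq_one_of_fpf h4 hh hh1 x.2 (by
      have := congrArg Subtype.val hx
      rw [MulAut.conjNormal_apply] at this
      exact (mul_inv_eq_iff_eq_mul.1 this).symm))
  refine H1.isNilpotent_of_fixedPointFree (MulAut.conjNormal h) hf hr (orderOf_eq_prime ?_ fun e => hN ?_)
  · rw [← map_pow, ← ho', pow_orderOf_eq_one, map_one]
  · exact eq_bot_iff.2 fun x hx => congrArg Subtype.val (hf ⟨x, hx⟩ (by rw [e]; rfl))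

end Cfsg.Agent.S0042
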