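import Cfsg.Statements.S0051
import Cfsg.Agent.Lib.H2.Gaschutz

set_option autoImplicit false
open Cfsg

namespace Cfsg.Agent.S0051

/-- Gaschütz's Theorem, existence: an abelian normal subgroup K that is complemented inside a subgroup U ≥ K whose index is coprime to the order of K is complemented in the whole group. -/
theorem result {G : Type*} [Group G] [Finite G] (K U : Subgroup G) [K.Normal] [IsMulCommutative K]
    (hKU : K ≤ U) (hcop : (Nat.card K).Coprime U.index)
    (A : Subgroup G) (hAU : A ≤ U) (hAK : A ⊓ K = ⊥) (hKA : K ⊔ A = U) :
    ∃ H : Subgroup G, Subgroup.IsComplement' K H := by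
  have _ := hKU
  have _ := hAU
  exact H2.gaschutz_exists K U hcop A hAK hKA

end Cfsg.Agent.S0051
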