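import Cfsg.Statements.S0070
import Cfsg.Agent.Lib.H2.Solv

set_option autoImplicit false
open Cfsg

namespace Cfsg.Agent.S0070

/-- The Fitting subgroup commutes with passing to the Frattini quotient: the Fitting subgroup of G modulo its Frattini subgroup is the image of the Fitting subgroup of G. -/
theorem result {G : Type*} [Group G] [Finite G] :
    Cfsg.fittingSubgroup (G ⧸ frattini G) = (Cfsg.fittingSubgroup G).map (QuotientGroup.mk' (frattini G)) := by
  exact H2.fitting_quotient_of_le_frattini _ le_rfl

end Cfsg.Agent.S0070
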