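import Cfsg.Statements.S0165
import Cfsg.Agent.Lib.H3.Brauer2

set_option autoImplicit false
open Cfsg

namespace Cfsg.Agent.S0165

/-- If p ^ n is the exact power of the prime p dividing the order of a finite group and p ^ n divides the degree of an irreducible complex representation, then its character vanishes at every element of order divisible by p. -/
theorem result {G : Type*} [Group G] [Finite G] {V : Type*} [AddCommGroup V] [Module ℂ V] [FiniteDimensional ℂ V] (ρ : Representation ℂ G V) [ρ.IsIrreducible] (p n : ℕ) (hp : p.Prime) (hn : p ^ n ∣ Nat.card G) (hn' : ¬ p ^ (n + 1) ∣ Nat.card G) (hdeg : p ^ n ∣ Module.finrank ℂ V) (x : G) (hx : p ∣ orderOf x) : ρ.character x = 0 := by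
  obtain ⟨m, hm⟩ := hn
  have hmp : m.Coprime p := by
    refine ((Nat.Prime.coprime_iff_not_dvd hp).mpr ?_).symm
    rintro ⟨t, rfl⟩
    exact hn' ⟨t, by rw [hm]; ring⟩
  refine Cfsg.Agent.H3.IsIrrCharacter_eq_zero_of_defect_zero hp
    (Cfsg.Agent.H3.isIrrCharacter_character ρ) hmp ?_ (not_not.mpr hx)
  rw [Cfsg.Agent.H3.charDegree_eq ρ.char_one, hm, mul_comm]
  exact Nat.mul_dvd_mul_left m hdeg

end Cfsg.Agent.S0165
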