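import Cfsg.Statements.S0166
import Cfsg.Agent.Lib.Lead.Split

set_option autoImplicit false
open Cfsg

namespace Cfsg.Agent.S0166

/-- Brauer's splitting field Theorem: a complex representation of a finite group of exponent m is equivalent to a representation by matrices with entries in ℚ adjoined exp(2πi/m). -/
theorem result {G : Type*} [Group G] [Finite G] (n : ℕ) (ρ : Representation ℂ G (Fin n → ℂ)) : ∃ σ : Representation ℂ G (Fin n → ℂ), Nonempty (ρ.Equiv σ) ∧ ∀ g : G, ∀ i j : Fin n, LinearMap.toMatrix' (σ g) i j ∈ Algebra.adjoin ℚ ({Complex.exp (2 * Real.pi * Complex.I / (Monoid.exponent G : ℂ))} : Set ℂ) := by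
  have he : Monoid.exponent G ≠ 0 := Monoid.exponent_ne_zero_of_finite
  have hζ := Complex.isPrimitiveRoot_exp _ he
  set ζ := Complex.exp (2 * Real.pi * Complex.I / (Monoid.exponent G : ℂ))
  have hint : IsIntegral ℚ ζ := (hζ.isIntegral (Nat.pos_of_ne_zero he)).tower_top
  obtain ⟨m, R, hR, e⟩ := Cfsg.Agent.Lead.isCharacterOver_of_roots
    (K := (IntermediateField.adjoin ℚ ({ζ} : Set ℂ)).toSubfield) (fun z hz => by
      have : NeZero (Monoid.exponent G) := ⟨he⟩
      obtain ⟨i, -, rfl⟩ := hζ.eq_pow_of_pow_eq_one hz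
      exact pow_mem (IntermediateField.mem_adjoin_simple_self ℚ ζ) i) ⟨n, ρ, rfl⟩
  obtain rfl : m = n := by
    have := e 1
    rw [map_one, Matrix.trace_one, Representation.char_one] at this
    simpa using this
  refine ⟨Cfsg.Agent.H4.repOfMat R, Cfsg.Agent.H3.equiv_of_character_eq _ _ (funext fun g => by
    rw [Cfsg.Agent.H4.character_repOfMat, e]), fun g i j => ?_⟩
  rw [Cfsg.Agent.H4.toMatrix'_repOfMat,
    ← IntermediateField.adjoin_simple_toSubalgebra_of_isAlgebraic hint.isAlgebraic]
  exact hR g i j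

end Cfsg.Agent.S0166
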