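import Cfsg.Statements.S0173
import Cfsg.Agent.Lib.H4.BrauerPerm

set_option autoImplicit false
open Cfsg

namespace Cfsg.Agent.S0173

/-- Brauer's permutation lemma for a single automorphism: the number of conjugacy classes mapped to themselves equals the number of irreducible complex characters χ with χ ∘ α = χ. -/
theorem result {G : Type*} [Group G] [Finite G] (α : G ≃* G) : Nat.card {C : ConjClasses G // ConjClasses.map α.toMonoidHom C = C} = Nat.card {χ : Cfsg.IrrCharacter G // (χ : G → ℂ) ∘ α = (χ : G → ℂ)} := by
  exact H4.brauer_perm_aut α

end Cfsg.Agent.S0173
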