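import Cfsg.Statements.S0175
import Cfsg.Agent.Lib.H4.Monomial

set_option autoImplicit false
open Cfsg

namespace Cfsg.Agent.S0175

/-- Taketa's Theorem on M-groups: if every irreducible complex character of a finite group is induced from a linear character (a homomorphism to ℂˣ) of some subgroup, the group is solvable. -/
theorem result {G : Type*} [Group G] [Fintype G] (hM : ∀ χ : G → ℂ, Cfsg.IsIrrCharacter G χ → ∃ (H : Subgroup G) (lam : H →* ℂˣ), χ = Cfsg.indFun H (fun h => (lam h : ℂ))) : Group.IsSolvable G := by
  exact H4.taketa hM

end Cfsg.Agent.S0175
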