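import Cfsg.Statements.S0196
import Cfsg.Agent.Lib.H4.GroupCount

set_option autoImplicit false
open Cfsg

namespace Cfsg.Agent.S0196

/-- Let A be a subgroup of a finite group G that equals the centralizer of each of its non-identity elements, and let N be its normalizer. Then the index of A in N divides |A| − 1 (N/A permutes the non-identity elements of A in orbits of full length). -/
theorem result {G : Type*} [Group G] [Finite G] (A : Subgroup G) (hA : ∀ x ∈ A, x ≠ 1 → Subgroup.centralizer ({x} : Set G) = A) : (A.subgroupOf (Subgroup.normalizer (A : Set G))).index ∣ Nat.card A - 1 := by
  exact H4.selfCentralizing_index_dvd A hA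

end Cfsg.Agent.S0196
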