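import Cfsg.Statements.S0901
import Cfsg.Agent.Lib.H5.Local

set_option autoImplicit false
open Cfsg

namespace Cfsg.Agent.S0901

/-- Let M be a maximal ideal of the ring of algebraic integers containing the prime p, and let U be the set of complex roots of unity of order prime to p. Then reduction modulo M is injective on U, and every algebraic integer not in M is congruent modulo M to an element of U (so U maps bijectively onto the nonzero residues). -/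
theorem result (p : ℕ) [Fact p.Prime] (M : Ideal Cfsg.AlgInt) (hM : Cfsg.IsPModular p M) : (∀ ε₁ ε₂ : Cfsg.AlgInt, (∃ m : ℕ, ¬ p ∣ m ∧ (ε₁ : ℂ) ^ m = 1) → (∃ m : ℕ, ¬ p ∣ m ∧ (ε₂ : ℂ) ^ m = 1) → ε₁ - ε₂ ∈ M → ε₁ = ε₂) ∧ (∀ a : Cfsg.AlgInt, a ∉ M → ∃ ε : Cfsg.AlgInt, (∃ m : ℕ, ¬ p ∣ m ∧ (ε : ℂ) ^ m = 1) ∧ a - ε ∈ M) := by
  have : H5.PMod p M := ⟨hM⟩
  constructor
  · rintro ε₁ ε₂ ⟨m, hm, h1⟩ ⟨n, hn, h2⟩ h
    have hp := hM.1
    have hm0 : m ≠ 0 := fun h0 => hm (h0 ▸ dvd_zero p)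
    have hn0 : n ≠ 0 := fun h0 => hn (h0 ▸ dvd_zero p)
    have h3 : H5.res M (ε₁ : ℂ) = H5.res M (ε₂ : ℂ) := by
      rw [H5.res_eq_iff (H5.coe_mem_locRing _) (H5.coe_mem_locRing _)]
      exact_mod_cast (H5.coe_mem_locIdeal_iff (M := M)).2 h
    have h4 : H5.res M (ε₂ : ℂ) ≠ 0 := H5.res_root_of_unity_ne_zero hn0 h2
    have h5 : (ε₁ : ℂ) / ε₂ = 1 := by
      refine H5.eq_one_of_res_eq_one (M := M) (m := m * n) (fun hd => ?_) ?_ ?_
      · rcases (Nat.Prime.dvd_mul hp).1 hd with h | h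
        · exact hm h
        · exact hn h
      · rw [div_pow, pow_mul, h1, mul_comm, pow_mul, h2, one_pow, one_pow, div_one]
      · rw [H5.res_div' (H5.coe_mem_locRing _) h4, h3, div_self h4]
    exact Subtype.ext ((div_eq_one_iff_eq (H5.ne_zero_of_res_ne_zero h4)).1 h5)
  · intro a ha
    have h1 : H5.res M (a : ℂ) ≠ 0 := by
      rw [H5.res_coe]; exact fun h => ha (H5.resMk_eq_zero.1 h)
    obtain ⟨z, ⟨m, hm, hz⟩, h2⟩ := H5.exists_root_of_unity_res_eq _ h1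
    have hm0 : m ≠ 0 := fun h0 => hm (h0 ▸ dvd_zero p)
    have hz' : z ∈ AlgInt := IsIntegral.of_pow (Nat.pos_of_ne_zero hm0) (hz ▸ isIntegral_one)
    refine ⟨⟨z, hz'⟩, ⟨m, hm, hz⟩, ?_⟩
    rw [← H5.coe_mem_locIdeal_iff]
    have := (H5.res_eq_iff (H5.coe_mem_locRing a) (H5.coe_mem_locRing ⟨z, hz'⟩)).1 h2.symm
    exact_mod_cast this

end Cfsg.Agent.S0901
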