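import Cfsg.Statements.S0903
import Cfsg.Agent.Lib.H5.Alg

set_option autoImplicit false
open Cfsg

namespace Cfsg.Agent.S0903

/-- Let P be a p-subgroup of the finite group G, let c centralize P and let g, h ∈ G. The number of pairs (x, y) with x conjugate to g, y conjugate to h and x * y = c is congruent modulo p to the number of such pairs in which x and y both centralize P. (This is why the Brauer map on class sums is multiplicative.) -/
theorem result {G : Type*} [Group G] [Finite G] (p : ℕ) [Fact p.Prime] (P : Subgroup G) (hP : IsPGroup p P) (c : G) (hc : c ∈ Subgroup.centralizer (P : Set G)) (g h : G) : Nat.card {xy : G × G // IsConj g xy.1 ∧ IsConj h xy.2 ∧ xy.1 * xy.2 = c} ≡ Nat.card {xy : G × G // IsConj g xy.1 ∧ IsConj h xy.2 ∧ xy.1 * xy.2 = c ∧ xy.1 ∈ Subgroup.centralizer (P : Set G) ∧ xy.2 ∈ Subgroup.centralizer (P : Set G)} [MOD p] := by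
  classical
  have := Fintype.ofFinite G
  have key : ∀ (S T : Set G), ((H5.setSum (ZMod p) S * H5.setSum (ZMod p) T).coeff c) =
      (Nat.card {xy : G × G // xy.1 ∈ S ∧ xy.2 ∈ T ∧ xy.1 * xy.2 = c} : ZMod p) := by
    intro S T
    rw [H5.coeff_mul_left, Nat.card_eq_fintype_card, Fintype.card_subtype, Finset.card_filter,
      Nat.cast_sum, Fintype.sum_prod_type]
    refine Finset.sum_congr rfl fun x _ => ?_
    rw [Finset.sum_eq_single (x⁻¹ * c)]
    · rw [H5.coeff_setSum, H5.coeff_setSum]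
      by_cases h1 : x ∈ S <;> by_cases h2 : x⁻¹ * c ∈ T <;> simp [h1, h2]
    · intro y _ hy
      rw [if_neg, Nat.cast_zero]
      rintro ⟨-, -, h⟩
      exact hy (by rw [← h]; simp)
    · simp
  rw [← ZMod.natCast_eq_natCast_iff]
  have h1 := H5.br_mul (CharP.cast_eq_zero (ZMod p) p) hP
    (H5.cen_le_fixSub P (H5.classSum_mem_cen g)) (H5.cen_le_fixSub P (H5.classSum_mem_cen h))
  have h2 := congrArg (fun a => a.coeff c) h1
  simp only [H5.coeff_br, if_pos hc] at h2
  rw [H5.classSum, H5.classSum, key, H5.br, H5.trunc_setSum, H5.trunc_setSum, key] at h2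
  refine Eq.trans h2 (congrArg _ (Nat.card_congr (Equiv.subtypeEquivRight fun xy => ?_)))
  exact ⟨fun ⟨⟨a, d⟩, ⟨b, e⟩, c⟩ => ⟨a, b, c, d, e⟩, fun ⟨a, b, c, d, e⟩ => ⟨⟨a, d⟩, ⟨b, e⟩, c⟩⟩

end Cfsg.Agent.S0903
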