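import Cfsg.Statements.S0904
import Cfsg.Agent.Lib.H3.Section

set_option autoImplicit false
open Cfsg

namespace Cfsg.Agent.S0904

/-- Let G be a finite simple group of order p ^ a * q ^ b * r with p, q, r distinct primes. Then every Sylow r-subgroup S of G satisfies C_G(S) = S. -/
theorem result {G : Type*} [Group G] [Finite G] [IsSimpleGroup G] (p q r a b : ℕ) (hp : p.Prime) (hq : q.Prime) [Fact r.Prime] (hpq : p ≠ q) (hpr : p ≠ r) (hqr : q ≠ r) (hcard : Nat.card G = p ^ a * q ^ b * r) (S : Sylow r G) : Subgroup.centralizer (S : Set G) = (S : Subgroup G) := by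
  classical
  have hr : r.Prime := Fact.out
  have key : ∀ (s t c d : ℕ), s.Prime → t.Prime → s ≠ r → t ≠ r → Nat.card G = s ^ c * t ^ d * r →
      (∃ a b : G, a * b ≠ b * a) → ∀ x : G, s ∣ orderOf x → r ∣ orderOf x → False := by
    intro s t c d hs ht hsr htr hG hna x hxs hxr
    obtain ⟨M, hM⟩ := H3.exists_isPModular hs
    have : H5.PMod s M := ⟨hM⟩
    have := Fact.mk hs
    have ht0 : (t : ℂ) ≠ 0 := by exact_mod_cast ht.ne_zero
    have h1 := H5.weak_orthogonality' (H5.blk_idem_mem (H5.isPBlock_principal (M := M) (G := G))).1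
      hxs H5.pReg_one
    rw [← Finset.add_sum_erase _ _ (H5.mem_fs.mpr H5.triv_mem_principal)] at h1
    have h2 : IsIntegral ℤ (∑ χ ∈ (H5.fs (Cfsg.principalBlock M G)).erase (H3.trivChar G),
        (χ : G → ℂ) x * (starRingEnd ℂ) ((χ : G → ℂ) 1) / t) := by
      refine IsIntegral.sum _ fun χ hχ => ?_
      rw [H3.irr_conj_apply_one, ← H3.irr_charDegree]
      have hd := H3.IsIrrCharacter_charDegree_dvd χ.2
      by_cases h3 : t ∣ Cfsg.charDegree (χ : G → ℂ)
      · obtain ⟨m, hm⟩ := h3
        rw [hm, Nat.cast_mul, mul_div_assoc, mul_div_cancel_left₀ _ ht0]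
        exact (H3.IsCharacter_isIntegral (H5.irr_isCharacter χ) x).mul (H3.isIntegral_natCast' m)
      by_cases h4 : r ∣ Cfsg.charDegree (χ : G → ℂ)
      · rw [H3.IsIrrCharacter_eq_zero_of_defect_zero hr χ.2 (m := s ^ c * t ^ d)
          (Nat.Coprime.mul_left (((Nat.coprime_primes hs hr).mpr hsr).pow_left c)
            (((Nat.coprime_primes ht hr).mpr htr).pow_left d))
          (by rw [hG]; exact Nat.mul_dvd_mul_left _ h4) (fun h => h hxr)]
        simpa using isIntegral_zero
      · exfalso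
        rw [hG] at hd
        have h5 := (Nat.Coprime.dvd_of_dvd_mul_right
          ((Nat.Prime.coprime_iff_not_dvd hr).mpr h4).symm hd)
        have h6 := (Nat.Coprime.dvd_of_dvd_mul_right
          (((Nat.Prime.coprime_iff_not_dvd ht).mpr h3).symm.pow_right d) h5)
        obtain ⟨k, -, hk⟩ := (Nat.dvd_prime_pow hs).mp h6
        refine Finset.ne_of_mem_erase hχ (H3.eq_triv_of_principal_of_prime_pow hna
          (H5.mem_fs.mp (Finset.mem_of_mem_erase hχ)) (k := k) ?_)
        rw [← H3.irr_charDegree, hk, Nat.cast_pow]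
    rw [← Finset.sum_div, eq_neg_of_add_eq_zero_right h1] at h2
    have h4 := H3.dvd_of_isIntegral_div (a := 1) ht.ne_zero (by simpa [neg_div] using h2.neg)
    exact ht.one_lt.ne' (Nat.dvd_one.mp h4)
  have hcop : (p ^ a * q ^ b).Coprime r :=
    Nat.Coprime.mul_left (((Nat.coprime_primes hp hr).mpr hpr).pow_left a)
      (((Nat.coprime_primes hq hr).mpr hqr).pow_left b)
  have hS : Nat.card S = r := by
    rw [S.card_eq_multiplicity, hcard, Nat.factorization_mul (by have := hp.pos; have := hq.pos; positivity)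
      hr.ne_zero, Finsupp.add_apply, hr.factorization_self,
      Nat.factorization_eq_zero_of_not_dvd ((Nat.Prime.coprime_iff_not_dvd hr).mp hcop.symm)]
    simp
  have hcyc : IsCyclic S := isCyclic_of_prime_card hS
  have hle : (S : Subgroup G) ≤ Subgroup.centralizer (S : Set G) := fun x hx y hy =>
    congrArg Subtype.val (hcyc.commGroup.mul_comm (⟨y, hy⟩ : (S : Subgroup G)) ⟨x, hx⟩)
  by_cases hna : ∃ a b : G, a * b ≠ b * a
  · refine (Subgroup.eq_of_le_of_card_ge hle ?_).symm
    obtain ⟨m, hm⟩ := Subgroup.card_dvd_of_le hle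
    by_cases hm1 : m = 1
    · rw [hm, hm1, mul_one]
    exfalso
    obtain ⟨s, hs, hsm⟩ := Nat.exists_prime_and_dvd hm1
    have h1 : m ∣ p ^ a * q ^ b := by
      have h2 := (Subgroup.centralizer (S : Set G)).card_subgroup_dvd_card
      rw [hm, hcard, hS, mul_comm] at h2
      exact Nat.dvd_of_mul_dvd_mul_right hr.pos h2
    have := Fact.mk hs
    obtain ⟨z, hz⟩ := exists_prime_orderOf_dvd_card' (G := Subgroup.centralizer (S : Set G)) s
      (hm ▸ hsm.mul_left _)
    obtain ⟨y, hy⟩ := exists_prime_orderOf_dvd_card' (G := S) r (by rw [hS])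
    have hsr : s ≠ r := by
      rintro rfl
      exact (Nat.Prime.coprime_iff_not_dvd hr).mp hcop.symm (hsm.trans h1)
    have hc : Commute (z : G) (y : G) := (z.2 y y.2).symm
    have ho : orderOf ((z : G) * y) = s * r := by
      rw [hc.orderOf_mul_eq_mul_orderOf_of_coprime, Subgroup.orderOf_coe, Subgroup.orderOf_coe,
        hz, hy]
      rw [Subgroup.orderOf_coe, Subgroup.orderOf_coe, hz, hy]
      exact (Nat.coprime_primes hs hr).mpr hsr
    rcases (Nat.Prime.dvd_mul hs).mp (hsm.trans h1) with h | h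
    · obtain rfl := (Nat.prime_dvd_prime_iff_eq hs hp).mp (hs.dvd_of_dvd_pow h)
      exact key s q a b hs hq hpr hqr hcard hna _ (ho ▸ Dvd.intro _ rfl) (ho ▸ Dvd.intro_left _ rfl)
    · obtain rfl := (Nat.prime_dvd_prime_iff_eq hs hq).mp (hs.dvd_of_dvd_pow h)
      exact key s p b a hs hp hqr hpr (by rw [hcard, mul_comm (p ^ a)]) hna _
        (ho ▸ Dvd.intro _ rfl) (ho ▸ Dvd.intro_left _ rfl)
  · push Not at hna
    let _ : CommGroup G := { (inferInstance : Group G) with mul_comm := hna }
    have h1 : (Nat.card G).Prime := IsSimpleGroup.prime_card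
    have h2 : Nat.card G = r :=
      ((Nat.prime_dvd_prime_iff_eq hr h1).mp (hcard ▸ Dvd.intro_left _ rfl)).symm
    have h3 : (S : Subgroup G) = ⊤ := Subgroup.eq_top_of_card_eq _ (hS.trans h2.symm)
    exact le_antisymm (h3 ▸ le_top) hle

end Cfsg.Agent.S0904
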