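import Cfsg.Statements.S0911
import Cfsg.Agent.Lib.H5.Defect

set_option autoImplicit false
open Cfsg

namespace Cfsg.Agent.S0911

/-- The min–max Theorem for defect classes. Let B be a block of the finite group G relative to a maximal ideal M of the algebraic integers containing the prime p, let g represent a defect class of B and let D be a Sylow p-subgroup of the centralizer of g (viewed in G). For any h: (a) if the idempotent coefficient of B at h is a local integer outside the local ideal, then some conjugate of D contains a Sylow p-subgroup of the centralizer of h; (b) if the central character of some member of B at h is outside the local ideal, then some conjugate of D is contained in a Sylow p-subgroup of the centralizer of h. -/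
theorem result {G : Type*} [Group G] [Finite G] (p : ℕ) [Fact p.Prime] (M : Ideal Cfsg.AlgInt) (hM : Cfsg.IsPModular p M) (B : Set (Cfsg.IrrCharacter G)) (hB : Cfsg.IsPBlock M B) (g : G) (hg : Cfsg.IsDefectClass M B g) (D : Sylow p (Subgroup.centralizer ({g} : Set G))) (h : G) : (Cfsg.MemLocalRing M (Cfsg.blockCoeff B h) → ¬ Cfsg.MemLocalIdeal M (Cfsg.blockCoeff B h) → ∃ (x : G) (Q : Sylow p (Subgroup.centralizer ({h} : Set G))), (Q : Subgroup (Subgroup.centralizer ({h} : Set G))).map (Subgroup.centralizer ({h} : Set G)).subtype ≤ ((D : Subgroup (Subgroup.centralizer ({g} : Set G))).map (Subgroup.centralizer ({g} : Set G)).subtype).map (MulAut.conj x).toMonoidHom) ∧ ((∃ χ ∈ B, ¬ Cfsg.MemLocalIdeal M (Cfsg.centralChar (χ : G → ℂ) h)) → ∃ (x : G) (Q : Sylow p (Subgroup.centralizer ({h} : Set G))), ((D : Subgroup (Subgroup.centralizer ({g} : Set G))).map (Subgroup.centralizer ({g} : Set G)).subtype).map (MulAut.conj x).toMonoidHom ≤ (Q : Subgroup (Subgroup.centralizer ({h} : Set G))).map (Subgroup.centralizer ({h} : Set G)).subtype) := by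
  have : H5.PMod p M := ⟨hM⟩
  have hD : IsDefectGroup p M B _ := ⟨g, hg, D, rfl⟩
  obtain ⟨Q⟩ : Nonempty (Sylow p (Subgroup.centralizer ({h} : Set G))) := inferInstance
  have hQ := H6.sylIn_map_subtype Q
  constructor
  · intro h1 h2
    obtain ⟨x, hx⟩ := H5.le_defectGroup_of_coeff hB hD ((H5.res_ne_zero_iff h1).2 h2)
      hQ.isPGroup hQ.le
    exact ⟨x⁻¹, Q, H6.cj_le_iff_le_cj.1 hx⟩
  · rintro ⟨χ, hχ, h1⟩
    obtain ⟨x, hx⟩ := H5.defectGroup_le_of_lam hB hD hχ
      ((H5.lam_classSum_ne_zero_iff χ h).2 h1) hQ
    exact ⟨x, Q, hx⟩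

end Cfsg.Agent.S0911
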