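import Cfsg.Statements.S0916
import Cfsg.Agent.Lib.H1.SylowIn
import Cfsg.Agent.Lib.H3.Basic2

set_option autoImplicit false
open Cfsg

namespace Cfsg.Agent.S0916

/-- Let P be a p-subgroup of the finite group G, C its centralizer and N its normalizer. Say that a conjugacy class (of G, or of N) has defect group P when P is a Sylow p-subgroup of the centralizer (in G, respectively in N) of some element of the class. Then: (i) if the class of g in G has defect group P, the elements of that class lying in C form a single N-class, again with defect group P; (ii) every N-class with defect group P arises this way from exactly one G-class with defect group P. -/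
theorem result {G : Type*} [Group G] [Finite G] (p : ℕ) [Fact p.Prime] (P : Subgroup G) (hP : IsPGroup p P) : (∀ g : G, (∃ S : Sylow p (Subgroup.centralizer ({g} : Set G)), (S : Subgroup (Subgroup.centralizer ({g} : Set G))).map (Subgroup.centralizer ({g} : Set G)).subtype = P) → (∃ c : G, IsConj g c ∧ c ∈ Subgroup.centralizer (P : Set G)) ∧ (∀ c₁ c₂ : G, IsConj g c₁ → IsConj g c₂ → c₁ ∈ Subgroup.centralizer (P : Set G) → c₂ ∈ Subgroup.centralizer (P : Set G) → ∃ n ∈ Subgroup.normalizer (P : Set G), n * c₁ * n⁻¹ = c₂)) ∧ (∀ c : G, c ∈ Subgroup.centralizer (P : Set G) → (∃ S : Sylow p (Subgroup.centralizer ({c} : Set G) ⊓ Subgroup.normalizer (P : Set G) : Subgroup G), (S : Subgroup ↥(Subgroup.centralizer ({c} : Set G) ⊓ Subgroup.normalizer (P : Set G))).map (Subgroup.centralizer ({c} : Set G) ⊓ Subgroup.normalizer (P : Set G)).subtype = P) → ∃ S : Sylow p (Subgroup.centralizer ({c} : Set G)), (S : Subgroup (Subgroup.centralizer ({c} : Set G))).map (Subgroup.centralizer ({c} : Set G)).subtype = P) := by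
  open Pointwise in
  refine ⟨fun g ⟨S, hS⟩ => ?_, fun c _ ⟨S, hS⟩ => ?_⟩
  · have h1 : H1.IsSylowIn p P (Subgroup.centralizer ({g} : Set G)) :=
      hS ▸ H1.isSylowIn_of_sylow S
    have hle : ∀ c : G, c ∈ Subgroup.centralizer (P : Set G) →
        P ≤ Subgroup.centralizer ({c} : Set G) := fun c hc x hx =>
      Subgroup.mem_centralizer_singleton_iff.mpr (hc x hx)
    have h2 : ∀ c : G, IsConj g c → c ∈ Subgroup.centralizer (P : Set G) →
        H1.IsSylowIn p P (Subgroup.centralizer ({c} : Set G)) := fun c hgc hc =>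
      H1.isSylowIn_of_card (hle c hc) (by rw [h1.card_eq, H3.card_centralizer_of_isConj hgc])
    refine ⟨⟨g, IsConj.refl g, fun x hx =>
      Subgroup.mem_centralizer_singleton_iff.mp (h1.le hx)⟩, fun c₁ c₂ a1 a2 b1 b2 => ?_⟩
    obtain ⟨x, hx⟩ := isConj_iff.mp (a1.symm.trans a2)
    have h3 := (h2 c₁ a1 b1).conj_smul x
    have h4 : MulAut.conj x • Subgroup.centralizer ({c₁} : Set G) =
        Subgroup.centralizer ({c₂} : Set G) := by
      ext y
      rw [Subgroup.mem_pointwise_smul_iff_inv_smul_mem, Subgroup.mem_centralizer_singleton_iff,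
        Subgroup.mem_centralizer_singleton_iff, ← hx]
      simp only [MulAut.smul_def, MulAut.conj_inv_apply]
      constructor
      · intro h
        calc y * (x * c₁ * x⁻¹) = x * (x⁻¹ * y * x * c₁) * x⁻¹ := by group
          _ = _ := by rw [h]; group
      · intro h
        calc x⁻¹ * y * x * c₁ = x⁻¹ * (y * (x * c₁ * x⁻¹)) * x := by group
          _ = _ := by rw [h]; group
    rw [h4] at h3
    obtain ⟨k, hk, hk'⟩ := h3.exists_conj (h2 c₂ a2 b2)
    refine ⟨k * x, H1.conj_smul_eq_iff_mem_normalizer.mp (by rw [map_mul, mul_smul, hk']), ?_⟩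
    have := Subgroup.mem_centralizer_singleton_iff.mp hk
    calc k * x * c₁ * (k * x)⁻¹ = k * (x * c₁ * x⁻¹) * k⁻¹ := by group
      _ = c₂ := by rw [hx, this]; group
  · have h1 := H1.isSylowIn_of_sylow S
    rw [hS] at h1
    exact (H1.isSylowIn_of_isSylowIn_normalizer h1).exists_sylow

end Cfsg.Agent.S0916
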