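import Cfsg.Statements.S0926
import Cfsg.Agent.Lib.H5.Height

set_option autoImplicit false
open Cfsg

namespace Cfsg.Agent.S0926

/-- Let B be a block of the finite group G with defect group D (relative to a maximal ideal M of the algebraic integers containing p), let χ ∈ B have height zero, and let x be a p-element. Then some conjugate of x lies in D if and only if χ does not vanish on the whole p-section of x (the elements whose p-part is conjugate to x). -/
theorem result {G : Type*} [Group G] [Finite G] (p : ℕ) [Fact p.Prime] (M : Ideal Cfsg.AlgInt) (hM : Cfsg.IsPModular p M) (B : Set (Cfsg.IrrCharacter G)) (hB : Cfsg.IsPBlock M B) (D : Subgroup G) (hD : Cfsg.IsDefectGroup p M B D) (χ : Cfsg.IrrCharacter G) (hχ : χ ∈ B) (h0 : Cfsg.blockHeight p B (χ : G → ℂ) = 0) (x : G) (hx : ∃ k : ℕ, orderOf x = p ^ k) : (∃ g : G, g * x * g⁻¹ ∈ D) ↔ ∃ u : G, (∃ z : G, Cfsg.IsPPart p u z ∧ IsConj x z) ∧ (χ : G → ℂ) u ≠ 0 := by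
  have : H5.PMod p M := ⟨hM⟩
  constructor
  · rintro ⟨g, hg⟩
    obtain ⟨y, hy, hD'⟩ := H5.isDefectGroup_iff.1 hD
    have hc : Commute (g * x * g⁻¹) y := Subgroup.mem_centralizer_singleton_iff.1 (hD'.le hg)
    have hp := H5.pElt_of_mem hD'.isPGroup hg
    exact ⟨g * x * g⁻¹ * y, ⟨_, H5.isPPart_mul hc hp (H5.defectClass_pReg hB hy),
      isConj_iff.2 ⟨g, rfl⟩⟩,
      H5.ne_zero_of_res_ne_zero (H5.res_mul_defectClass_ne_zero hB hy hχ h0 hc hp)⟩
  · rintro ⟨u, ⟨z, hz, hxz⟩, hu⟩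
    obtain ⟨E, hE, hzE⟩ := H5.exists_defectGroup_mem_of_ne_zero hB hχ hu
    obtain ⟨y, rfl⟩ := H5.defectGroup_conj hB hE hD
    obtain ⟨c, rfl⟩ := isConj_iff.1 hxz
    rw [← H5.isPPart_iff.1 hz] at hzE
    exact ⟨y * c, by simpa [mul_assoc] using H6.conj_mem_cj (g := y) hzE⟩

end Cfsg.Agent.S0926
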