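import Cfsg.Statements.S0934
import Cfsg.Agent.Lib.H5.Induced

set_option autoImplicit false
open Cfsg

namespace Cfsg.Agent.S0934

/-- Let H be a subgroup of the finite group G and fix a maximal ideal M of the algebraic integers containing the prime p. If the block b of H induces the block B of G and ξ ∈ b, then there is χ ∈ B whose restriction to H has nonzero inner product with ξ. -/
theorem result {G : Type*} [Group G] [Fintype G] (p : ℕ) [Fact p.Prime] (M : Ideal Cfsg.AlgInt) (hM : Cfsg.IsPModular p M) (H : Subgroup G) [Fintype H] (b : Set (Cfsg.IrrCharacter H)) (B : Set (Cfsg.IrrCharacter G)) (hind : Cfsg.IsInducedBlock M H b B) (ξ : Cfsg.IrrCharacter H) (hξ : ξ ∈ b) : ∃ χ ∈ B, Cfsg.classInner (fun h : H => (χ : G → ℂ) h) (ξ : H → ℂ) ≠ 0 := by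
  have : H5.PMod p M := ⟨hM⟩
  by_contra hcon
  push Not at hcon
  have h := H5.ind_lam_blockIdem hind hξ
  have h1 : H5.ev (ξ : H → ℂ) (H5.resS H (H5.blockIdem B)) = 0 := by
    rw [H5.ev_eq_sum]
    simp only [H5.coeff_resS, H5.coeff_blockIdem, H5.blockCoeff_eq, Finset.mul_sum, Finset.sum_mul]
    rw [Finset.sum_comm]
    refine Finset.sum_eq_zero fun χ hχ => ?_
    have h2 := congrArg (starRingEnd ℂ) (hcon χ (H5.mem_fs.1 hχ))
    rw [H3.conj_classInner, map_zero, classInner,
      mul_eq_zero_iff_left (inv_ne_zero (H3.card_ne_zero_complex H))] at h2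
    simp only [mul_comm _ ((ξ : H → ℂ) _), mul_left_comm ((ξ : H → ℂ) _), ← Finset.mul_sum, h2,
      mul_zero]
  rw [H5.lam, H5.om_eq, h1, zero_div, H5.res_zero] at h
  exact zero_ne_one h

end Cfsg.Agent.S0934
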