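import Cfsg.Statements.S0944
import Cfsg.Agent.Lib.H3.Central

set_option autoImplicit false
open Cfsg

namespace Cfsg.Agent.S0944

/-- Let χ be an irreducible character of the finite group G and u an involution. Then χ u is a rational integer n with n ≡ χ 1 (mod 2). -/
theorem result {G : Type*} [Group G] [Finite G] (χ : Cfsg.IrrCharacter G) (u : G) (hu : orderOf u = 2) : ∃ n : ℤ, (χ : G → ℂ) u = (n : ℂ) ∧ (2 : ℤ) ∣ (Cfsg.charDegree (χ : G → ℂ) : ℤ) - n := by
  classical
  have hc := H3.IsIrrCharacter_isCharacter χ.2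
  obtain ⟨n, ζ, h1, h2, h3⟩ := H3.IsCharacter_exists_roots hc u
  have h4 := h3 1
  simp only [pow_one] at h4
  rw [hu] at h2
  have h5 : ∀ i, ∃ z : ℤ, ζ i = z ∧ (2 : ℤ) ∣ 1 - z := fun i => by
    rcases mul_self_eq_one_iff.mp ((sq (ζ i)).symm.trans (h2 i)) with h | h
    · exact ⟨1, by simp [h], by simp⟩
    · exact ⟨-1, by simp [h], by norm_num⟩
  choose z hz1 hz2 using h5
  refine ⟨∑ i, z i, by simp [h4, hz1], ?_⟩
  rw [H3.charDegree_eq h1]
  have : (n : ℤ) - ∑ i, z i = ∑ i : Fin n, (1 - z i) := by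
    simp [Finset.sum_sub_distrib]
  rw [this]
  exact Finset.dvd_sum fun i _ => hz2 i

end Cfsg.Agent.S0944
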