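import Cfsg.Statements.S0947
import Cfsg.Agent.Lib.H3.Main

set_option autoImplicit false
open Cfsg

namespace Cfsg.Agent.S0947

/-- Let z ≠ 1 be a p-element of the finite group G with centralizer H, and fix a maximal ideal M of the algebraic integers containing p. (i) For every y ∈ H of order prime to p, the sum over ζ in the principal block of G of |ζ (z * y)|² equals the sum over χ in the principal block of H of |χ y|². (ii) If moreover H has a normal p-complement (its largest normal subgroup of order prime to p has p-power index), that common value is the largest power of p dividing the order of H. -/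
theorem result {G : Type*} [Group G] [Finite G] (p : ℕ) [Fact p.Prime] (M : Ideal Cfsg.AlgInt) (hM : Cfsg.IsPModular p M) (z : G) (hz : ∃ k : ℕ, orderOf z = p ^ k) (hz1 : z ≠ 1) (y : Subgroup.centralizer ({z} : Set G)) (hy : ¬ p ∣ orderOf y) : (∑ᶠ ζ ∈ Cfsg.principalBlock M G, ‖(ζ : G → ℂ) (z * (y : G))‖ ^ 2 = ∑ᶠ χ ∈ Cfsg.principalBlock M (Subgroup.centralizer ({z} : Set G)), ‖(χ : Subgroup.centralizer ({z} : Set G) → ℂ) y‖ ^ 2) ∧ ((∃ k : ℕ, (Cfsg.pPrimeCore p (Subgroup.centralizer ({z} : Set G))).index = p ^ k) → ∑ᶠ ζ ∈ Cfsg.principalBlock M G, ‖(ζ : G → ℂ) (z * (y : G))‖ ^ 2 = ((p ^ (Nat.card (Subgroup.centralizer ({z} : Set G))).factorization p : ℕ) : ℝ)) := by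
  have : H5.PMod p M := ⟨hM⟩
  have hzH : z ∈ Subgroup.centralizer ({z} : Set G) :=
    Subgroup.mem_centralizer_singleton_iff.2 rfl
  have hc : Commute z (y : G) := (Subgroup.mem_centralizer_singleton_iff.1 y.2).symm
  have hy' : ¬ p ∣ orderOf (y : G) := by rwa [Subgroup.orderOf_coe]
  have hcen : (⟨z, hzH⟩ : Subgroup.centralizer ({z} : Set G)) ∈ Subgroup.center _ :=
    Subgroup.mem_center_iff.2 fun w => Subtype.ext (Subgroup.mem_centralizer_singleton_iff.1 w.2)
  have h1 := H3.sum_principal_mul_conj (M := M) hz rfl (⟨z, hzH⟩ * y) (⟨z, hzH⟩ * y)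
    (H5.pPart_mul hc hz hy') (H5.pPart_mul hc hz hy')
  simp only [Complex.mul_conj, Complex.normSq_eq_norm_sq] at h1
  have h2 : ∑ ζ ∈ H5.fs (Cfsg.principalBlock M G), ‖(ζ : G → ℂ) (z * (y : G))‖ ^ 2 =
      ∑ χ ∈ H5.fs (Cfsg.principalBlock M (Subgroup.centralizer ({z} : Set G))),
        ‖(χ : Subgroup.centralizer ({z} : Set G) → ℂ) (⟨z, hzH⟩ * y)‖ ^ 2 := by
    exact_mod_cast h1
  rw [H5.finsum_mem_eq_fs, H5.finsum_mem_eq_fs, h2]
  constructor
  · refine Finset.sum_congr rfl fun χ _ => ?_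
    obtain ⟨ω, hω, h⟩ := H3.IsCharacter_mul_of_norm_eq (H5.irr_isCharacter χ)
      (H3.IsIrrCharacter_norm_eq_of_mem_center χ.2 hcen)
    rw [h, norm_mul, hω, one_mul]
  · intro hk
    have hK : ¬ p ∣ Nat.card (Cfsg.pPrimeCore p (Subgroup.centralizer ({z} : Set G))) :=
      (Nat.Prime.coprime_iff_not_dvd Fact.out).1 (H1.pPrimeCore_card_coprime p _).symm
    have hyK := H5.mem_of_pReg_of_index hk hy
    have h3 := H3.sum_principal_central_of_complement (M := M) hK hk hcen hyK hyK
    rw [H3.index_eq_ordProj_of_complement hK hk] at h3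
    simp only [Complex.mul_conj, Complex.normSq_eq_norm_sq] at h3
    exact_mod_cast h3

end Cfsg.Agent.S0947
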