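import Cfsg.Statements.S0950
import Cfsg.Agent.Lib.H3.BS3

set_option autoImplicit false
open Cfsg

namespace Cfsg.Agent.S0950

/-- Let S be a Sylow 2-subgroup of the finite group G that is isomorphic to the quaternion group of order 8, and suppose S has no normal complement in G. Then any two subgroups of order 4 of S are conjugate by an element of the normalizer of S. -/
theorem result {G : Type*} [Group G] [Finite G] (S : Sylow 2 G) (e : (S : Subgroup G) ≃* QuaternionGroup 2) (hnc : ∀ N : Subgroup G, N.Normal → ¬ Subgroup.IsComplement' N (S : Subgroup G)) (A B : Subgroup G) (hA : A ≤ S) (hB : B ≤ S) (hA4 : Nat.card A = 4) (hB4 : Nat.card B = 4) : ∃ n ∈ Subgroup.normalizer ((S : Subgroup G) : Set G), B = A.map (MulAut.conj n).toMonoidHom := by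
  obtain ⟨u, h⟩ := H3.exists_q8Data e
  have hnc' : ¬ HasNormalPComplement 2 G := fun hc => by
    obtain ⟨N, h1, h2⟩ := H3.isComplement'_of_hasNormalPComplement hc S
    exact hnc N h1 h2
  obtain ⟨huu, hu1⟩ := H3.orderOf_eq_two_iff'.1 h.ord
  obtain ⟨H, hH⟩ : ∃ H, H = Subgroup.centralizer ({u} : Set G) := ⟨_, rfl⟩
  have := H3.normal_zpowers_of_mem_center (H3.self_mem_center hH)
  have hle : (S : Subgroup G) ≤ H := hH ▸ h.le_centralizer
  obtain ⟨π, hπ, hker⟩ : ∃ π : H →* H ⧸ Subgroup.zpowers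
      (⟨u, H3.self_mem_of_eq_centralizer hH⟩ : H), Function.Surjective π ∧
      π.ker = Subgroup.zpowers (⟨u, H3.self_mem_of_eq_centralizer hH⟩ : H) :=
    ⟨_, QuotientGroup.mk'_surjective _, QuotientGroup.ker_mk' _⟩
  obtain ⟨T, hT, hT'⟩ := h.quot hH π hπ hker
  have key : ∀ C : Subgroup G, C ≤ S → Nat.card C = 4 → ∃ y, ∃ hy : y ∈ (S : Subgroup G),
      y * y ≠ 1 ∧ C = Subgroup.zpowers y ∧ orderOf (π ⟨y, hle hy⟩) = 2 := fun C hC hC4 => by
    obtain ⟨y, hy, hy2⟩ : ∃ y ∈ C, y * y ≠ 1 := by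
      by_contra hn
      push Not at hn
      have : C ≤ Subgroup.zpowers u := fun y hy => by
        rcases h.inv y (hC hy) (hn y hy) with rfl | rfl
        · exact one_mem _
        · exact Subgroup.mem_zpowers _
      have := Subgroup.card_le_of_le this
      rw [Nat.card_zpowers, h.ord, hC4] at this
      omega
    refine ⟨y, hC hy, hy2, (Subgroup.eq_of_le_of_card_ge (Subgroup.zpowers_le.2 hy)
      (by rw [Nat.card_zpowers, h.orderOf_eq_four (hC hy) hy2, hC4])).symm,
      H3.orderOf_eq_two_iff'.2 ⟨congrArg Subtype.val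
        (H3.klein_mul_self hT ⟨_, (hT' _).2 (hC hy)⟩), fun h1 => hy2 ?_⟩⟩
    rcases H3.eq_or_eq_mul_of_map_eq huu hH π hker (h1.trans (map_one π).symm) with h2 | h2
    · simp only [OneMemClass.coe_one] at h2
      rw [h2, one_mul]
    · simp only [OneMemClass.coe_one, one_mul] at h2
      rw [h2, huu]
  obtain ⟨y, hy, hy2, rfl, hy3⟩ := key A hA hA4
  obtain ⟨z, hz, hz2, rfl, hz3⟩ := key B hB hB4
  obtain ⟨n, hn, hn'⟩ := H3.three_invs_transitive T (H3.klein_comm hT) (H3.klein_card_invs hT)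
    (fun hN => by
      obtain ⟨K, h1, -, -, h4⟩ := H3.exists_complement_of_normalizer_le T hN
      exact h.not_complement hH π hker hT hT' hnc' K h4)
    ((hT' ⟨y, hle hy⟩).2 hy) ((hT' ⟨z, hle hz⟩).2 hz) hy3 hz3
  obtain ⟨n, rfl⟩ := hπ n
  refine ⟨n, H6.mem_normalizer_of_conj_mem fun s hs => ?_, ?_⟩
  · have := H6.conj_mem_of_mem_normalizer hn ((hT' ⟨s, hle hs⟩).2 hs)
    rw [← map_inv, ← map_mul, ← map_mul] at this
    exact (hT' _).1 this
  · symm
    refine Subgroup.eq_of_le_of_card_ge ?_ (by rw [H6.card_cj, hA4, hB4])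
    change H6.cj _ _ ≤ _
    rw [H6.cj_zpowers, Subgroup.zpowers_le]
    rw [← map_inv, ← map_mul, ← map_mul] at hn'
    rcases H3.eq_or_eq_mul_of_map_eq huu hH π hker hn' with h2 | h2
    · exact (show (n : G) * y * (n : G)⁻¹ = z from h2) ▸ Subgroup.mem_zpowers z
    · rw [show (n : G) * y * (n : G)⁻¹ = z * u from h2, ← (h.sq z hz).resolve_left hz2]
      exact mul_mem (Subgroup.mem_zpowers z)
        (mul_mem (Subgroup.mem_zpowers z) (Subgroup.mem_zpowers z))

end Cfsg.Agent.S0950
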