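import Cfsg.Statements.S0951
import Cfsg.Agent.Lib.H3.BS3

set_option autoImplicit false
open Cfsg

namespace Cfsg.Agent.S0951

/-- Let S be a Sylow 2-subgroup of the finite group G isomorphic to the quaternion group of order 8. Suppose G has no nontrivial normal subgroup of odd order and G ≠ S. Then, relative to any maximal ideal M of the algebraic integers containing 2, the principal block of G consists of exactly 7 irreducible characters. -/
theorem result {G : Type*} [Group G] [Finite G] (M : Ideal Cfsg.AlgInt) (hM : Cfsg.IsPModular 2 M) (S : Sylow 2 G) (e : (S : Subgroup G) ≃* QuaternionGroup 2) (hO : ∀ N : Subgroup G, N.Normal → Odd (Nat.card N) → N = ⊥) (hG : (S : Subgroup G) ≠ ⊤) : Nat.card (Cfsg.principalBlock M G) = 7 := by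
  have : H5.PMod 2 M := ⟨hM⟩
  obtain ⟨u, hu⟩ := H3.exists_q8Data e
  refine (H3.q8_main hu fun hc => hG ?_).1
  obtain ⟨N, h1, h2⟩ := H3.isComplement'_of_hasNormalPComplement hc S
  have h3 : N = ⊥ := hO N h1 (by
    rw [← h2.index_eq_card]
    exact Nat.odd_iff.2 (Nat.two_dvd_ne_zero.1 S.not_dvd_index))
  rwa [h3, Subgroup.isComplement'_bot_left] at h2

end Cfsg.Agent.S0951
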