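import Cfsg.Statements.S0953
import Cfsg.Agent.Lib.H5.Reynolds

set_option autoImplicit false
open Cfsg

namespace Cfsg.Agent.S0953

/-- Let P be a Sylow p-subgroup of the finite group G with normalizer N, and fix a maximal ideal M of the algebraic integers containing p. The number of blocks of G having P as a defect group equals the number of conjugacy classes of N consisting of elements of order prime to p that centralize P. -/
theorem result {G : Type*} [Group G] [Finite G] (p : ℕ) [Fact p.Prime] (M : Ideal Cfsg.AlgInt) (hM : Cfsg.IsPModular p M) (P : Sylow p G) : Nat.card {B : Set (Cfsg.IrrCharacter G) // Cfsg.IsPBlock M B ∧ Cfsg.IsDefectGroup p M B (P : Subgroup G)} = Nat.card {C : ConjClasses (Subgroup.normalizer ((P : Subgroup G) : Set G)) // ∀ n : Subgroup.normalizer ((P : Subgroup G) : Set G), ConjClasses.mk n = C → ¬ p ∣ orderOf n ∧ (n : G) ∈ Subgroup.centralizer ((P : Subgroup G) : Set G)} := by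
  have : H5.PMod p M := ⟨hM⟩
  rw [H5.card_first_main _ P.isPGroup']
  let Q := P.subtype (Subgroup.le_normalizer (H := (P : Subgroup G)))
  have hQ : (Q : Subgroup (Subgroup.normalizer ((P : Subgroup G) : Set G))).Normal :=
    Subgroup.normal_in_normalizer
  have h := H5.card_blocks_of_normal_sylow (M := M) Q
  refine Eq.trans (Nat.card_congr (Equiv.subtypeEquivRight fun b => ⟨fun h => h.1, fun h =>
    ⟨h, H5.isDefectGroup_of_normal_sylow h (H6.sylIn_top Q)⟩⟩)) (h.trans
      (Nat.card_congr (Equiv.subtypeEquivRight fun C => forall_congr' fun n => ?_)))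
  rw [← H5.mem_centralizer_subgroupOf_iff Subgroup.le_normalizer]
  rfl

end Cfsg.Agent.S0953
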