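import Cfsg.Statements.S0956
import Cfsg.Agent.Lib.H5.Green

set_option autoImplicit false
open Cfsg

namespace Cfsg.Agent.S0956

/-- Let D be a defect group of a block of the finite group G (relative to a maximal ideal M of the algebraic integers containing the prime p) and P a Sylow p-subgroup containing D. Then there is an element x of order prime to p such that D is a Sylow p-subgroup of the centralizer of x and D = P ∩ x P x⁻¹. -/
theorem result {G : Type*} [Group G] [Finite G] (p : ℕ) [Fact p.Prime] (M : Ideal Cfsg.AlgInt) (hM : Cfsg.IsPModular p M) (B : Set (Cfsg.IrrCharacter G)) (hB : Cfsg.IsPBlock M B) (D : Subgroup G) (hD : Cfsg.IsDefectGroup p M B D) (P : Sylow p G) (hDP : D ≤ P) : ∃ x : G, ¬ p ∣ orderOf x ∧ (∃ S : Sylow p (Subgroup.centralizer ({x} : Set G)), (S : Subgroup (Subgroup.centralizer ({x} : Set G))).map (Subgroup.centralizer ({x} : Set G)).subtype = D) ∧ (P : Subgroup G) ⊓ (P : Subgroup G).map (MulAut.conj x).toMonoidHom = D := by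
  have : H5.PMod p M := ⟨hM⟩
  obtain ⟨x, h1, h2, h3⟩ := H5.green hB hD P.isPGroup' hDP
  exact ⟨x, h1, H5.sylIn_iff_exists_sylow.1 h2, h3⟩

end Cfsg.Agent.S0956
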