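import Cfsg.Statements.S0957
import Cfsg.Agent.Lib.H1.SylowIn
import Cfsg.Agent.Lib.H3.Basic2

set_option autoImplicit false
open Cfsg

namespace Cfsg.Agent.S0957

/-- Let P be a Sylow p-subgroup of the finite group G, let g, h ∈ G and let p ^ d be the order of a Sylow p-subgroup of the centralizer of g. Then the number of pairs (y, z) with y conjugate to g, z conjugate to h and z * y⁻¹ ∈ P is divisible by the order of P divided by p ^ d. -/
theorem result {G : Type*} [Group G] [Finite G] (p : ℕ) [Fact p.Prime] (P : Sylow p G) (g h : G) (S : Sylow p (Subgroup.centralizer ({g} : Set G))) : Nat.card P / Nat.card S ∣ Nat.card {yz : G × G // IsConj g yz.1 ∧ IsConj h yz.2 ∧ yz.2 * yz.1⁻¹ ∈ (P : Subgroup G)} := by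
  classical
  let X := {yz : G × G // IsConj g yz.1 ∧ IsConj h yz.2 ∧ yz.2 * yz.1⁻¹ ∈ (P : Subgroup G)}
  let act : MulAction (P : Subgroup G) X :=
    { smul := fun u x => ⟨((u : G) * x.1.1 * (u : G)⁻¹, (u : G) * x.1.2 * (u : G)⁻¹),
        x.2.1.trans (isConj_iff.mpr ⟨u, rfl⟩), x.2.2.1.trans (isConj_iff.mpr ⟨u, rfl⟩), by
          have : (u : G) * x.1.2 * (u : G)⁻¹ * ((u : G) * x.1.1 * (u : G)⁻¹)⁻¹ =
            u * (x.1.2 * x.1.1⁻¹) * (u : G)⁻¹ := by group
          rw [this]
          exact mul_mem (mul_mem u.2 x.2.2.2) (inv_mem u.2)⟩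
      one_smul := fun x => Subtype.ext (Prod.ext (by change ((1 : (P : Subgroup G)) : G) * _ * ((1 : (P : Subgroup G)) : G)⁻¹ = _; simp)
        (by change ((1 : (P : Subgroup G)) : G) * _ * ((1 : (P : Subgroup G)) : G)⁻¹ = _; simp))
      mul_smul := fun u v x => Subtype.ext (Prod.ext
        (by change ((u * v : (P : Subgroup G)) : G) * _ * ((u * v : (P : Subgroup G)) : G)⁻¹ =
              (u : G) * ((v : G) * _ * (v : G)⁻¹) * (u : G)⁻¹
            simp [mul_assoc])
        (by change ((u * v : (P : Subgroup G)) : G) * _ * ((u * v : (P : Subgroup G)) : G)⁻¹ =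
              (u : G) * ((v : G) * _ * (v : G)⁻¹) * (u : G)⁻¹
            simp [mul_assoc])) }
  have hsm : ∀ (u : (P : Subgroup G)) (x : X), (u • x).1.1 = (u : G) * x.1.1 * (u : G)⁻¹ :=
    fun _ _ => rfl
  change _ ∣ Nat.card X
  have := Fintype.ofFinite (MulAction.orbitRel.Quotient (P : Subgroup G) X)
  rw [Nat.card_congr (MulAction.selfEquivSigmaOrbits (P : Subgroup G) X), Nat.card_sigma]
  refine Finset.dvd_sum fun ω _ => ?_
  rw [Nat.card_coe_set_eq, ← MulAction.index_stabilizer]
  set x := ω.out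
  set T := MulAction.stabilizer (P : Subgroup G) x
  have hT : IsPGroup p T := P.isPGroup'.to_subgroup T
  have h1 : T.map (P : Subgroup G).subtype ≤ Subgroup.centralizer ({x.1.1} : Set G) := by
    rintro _ ⟨u, hu, rfl⟩
    have := hsm u x
    rw [MulAction.mem_stabilizer_iff.mp hu] at this
    rw [Subgroup.mem_centralizer_singleton_iff]
    change (u : G) * _ = _ * (u : G)
    conv_rhs => rw [this]
    group
  have h2 : Nat.card T ∣ Nat.card S := by
    obtain ⟨k, hk⟩ := IsPGroup.iff_card.mp hT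
    have h3 := Subgroup.card_dvd_of_le h1
    rw [Subgroup.card_map_of_injective (Subgroup.subtype_injective _),
      ← H3.card_centralizer_of_isConj x.2.1, hk] at h3
    rw [hk, S.card_eq_multiplicity]
    exact pow_dvd_pow p (((Fact.out : p.Prime).pow_dvd_iff_le_factorization
      Nat.card_pos.ne').mp h3)
  have h4 : Nat.card S ∣ Nat.card P := by
    rw [S.card_eq_multiplicity, P.card_eq_multiplicity]
    exact pow_dvd_pow p ((Nat.factorization_le_iff_dvd Nat.card_pos.ne' Nat.card_pos.ne').mpr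
      (Subgroup.card_subgroup_dvd_card _) p)
  obtain ⟨a, ha⟩ := h2
  obtain ⟨b, hb⟩ := h4
  have h5 : T.index * Nat.card T = Nat.card P := T.index_mul_card
  rw [hb, Nat.mul_div_cancel_left _ Nat.card_pos]
  refine ⟨a, Nat.eq_of_mul_eq_mul_right (Nat.card_pos (α := T)) ?_⟩
  rw [h5, hb, ha]
  ring

end Cfsg.Agent.S0957
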