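import Cfsg.Statements.S0971
import Cfsg.Agent.Lib.H5.Induced
import Cfsg.Agent.Lib.H3.Cover

set_option autoImplicit false
open Cfsg

namespace Cfsg.Agent.S0971

/-- Let Q be a normal p-subgroup of the finite group G, let N = Q ⊔ C_G(Q) (a normal subgroup) and let b be a block of N relative to a maximal ideal M of the algebraic integers containing p. Then b induces some block of G, and every block B of G containing a character whose restriction to N has a constituent in b is induced by b. -/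
theorem result {G : Type*} [Group G] [Fintype G] (p : ℕ) [Fact p.Prime] (M : Ideal Cfsg.AlgInt) (hM : Cfsg.IsPModular p M) (Q : Subgroup G) [Q.Normal] (hQ : IsPGroup p Q) [Fintype ↥(Q ⊔ Subgroup.centralizer (Q : Set G))] (b : Set (Cfsg.IrrCharacter ↥(Q ⊔ Subgroup.centralizer (Q : Set G)))) (hb : Cfsg.IsPBlock M b) : Cfsg.InducedBlockDefined M (Q ⊔ Subgroup.centralizer (Q : Set G)) b ∧ ∀ B : Set (Cfsg.IrrCharacter G), Cfsg.IsPBlock M B → (∃ χ ∈ B, ∃ θ ∈ b, Cfsg.classInner (fun n : ↥(Q ⊔ Subgroup.centralizer (Q : Set G)) => (χ : G → ℂ) n) (θ : ↥(Q ⊔ Subgroup.centralizer (Q : Set G)) → ℂ) ≠ 0) → Cfsg.IsInducedBlock M (Q ⊔ Subgroup.centralizer (Q : Set G)) b B := by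
  have : H5.PMod p M := ⟨hM⟩
  have hN : Q ⊔ Subgroup.centralizer (Q : Set G) ≤ Subgroup.normalizer (Q : Set G) :=
    Subgroup.le_normalizer_of_normal
  refine ⟨H5.exists_ind hQ le_sup_left le_sup_right hN hb, ?_⟩
  rintro B hB ⟨χ, hχ, θ, hθ, h⟩
  refine H5.isInducedBlock_of_lam hb hB hθ hχ fun g => ?_
  rw [← H5.lam_br hQ χ (H5.classSum_mem_ZO g), H3.lam_eq_lam_resS_of_under h
    (H5.br_mem_ZO (M := M) (H5.classSum_mem_ZO g)).2,
    H5.lam_resS_br' hQ le_sup_left hN θ (H5.classSum_mem_ZO g)]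
  intro x hx
  exact H5.coeff_trunc_of_notMem _ fun h1 => hx (Subgroup.mem_sup_right h1)

end Cfsg.Agent.S0971
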