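import Cfsg.Statements.S0973
import Cfsg.Agent.Lib.H5.Extended

set_option autoImplicit false
open Cfsg

namespace Cfsg.Agent.S0973

/-- Let B be a block of the finite group G with defect group P (relative to a maximal ideal M of the algebraic integers containing p), and let L = P ⊔ C_G(P). Then (i) some block b of L with defect group P (viewed in L) induces B, and (ii) if b and b' are blocks of L both inducing B, there is n ∈ N_G(P) carrying b to b': for every θ ∈ b there is θ' ∈ b' with θ' x = θ (n x n⁻¹) for all x ∈ L. -/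
theorem result {G : Type*} [Group G] [Finite G] (p : ℕ) [Fact p.Prime] (M : Ideal Cfsg.AlgInt) (hM : Cfsg.IsPModular p M) (B : Set (Cfsg.IrrCharacter G)) (hB : Cfsg.IsPBlock M B) (P : Subgroup G) (hP : Cfsg.IsDefectGroup p M B P) : (∃ b : Set (Cfsg.IrrCharacter ↥(P ⊔ Subgroup.centralizer (P : Set G))), Cfsg.IsDefectGroup p M b (P.subgroupOf (P ⊔ Subgroup.centralizer (P : Set G))) ∧ Cfsg.IsInducedBlock M (P ⊔ Subgroup.centralizer (P : Set G)) b B) ∧ ∀ b b' : Set (Cfsg.IrrCharacter ↥(P ⊔ Subgroup.centralizer (P : Set G))), Cfsg.IsInducedBlock M (P ⊔ Subgroup.centralizer (P : Set G)) b B → Cfsg.IsInducedBlock M (P ⊔ Subgroup.centralizer (P : Set G)) b' B → ∃ n ∈ Subgroup.normalizer (P : Set G), ∀ θ ∈ b, ∃ θ' ∈ b', ∀ x : ↥(P ⊔ Subgroup.centralizer (P : Set G)), ∀ hx : n * (x : G) * n⁻¹ ∈ P ⊔ Subgroup.centralizer (P : Set G), (θ' : ↥(P ⊔ Subgroup.centralizer (P : Set G)) → ℂ) x = (θ : ↥(P ⊔ Subgroup.centralizer (P : Set G)) → ℂ) ⟨n * (x : G) * n⁻¹, hx⟩ :=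 by
  have : H5.PMod p M := ⟨hM⟩
  have hHN : P ⊔ Subgroup.centralizer (P : Set G) ≤ Subgroup.normalizer (P : Set G) :=
    sup_le Subgroup.le_normalizer (Subgroup.centralizer_le_normalizer _)
  constructor
  · obtain ⟨b, hb⟩ := (H5.exists_ind_iff_br (H5.defectGroup_isPGroup hP) le_sup_left le_sup_right
      hHN hB).2 (H5.br_defectGroup_ne_zero hB hP)
    exact ⟨b, H5.isDefectGroup_of_ind le_sup_left hHN hb hP, hb⟩
  · intro b b' h h'
    obtain ⟨n, hn⟩ := H5.extended_first_main le_sup_left le_sup_right hHN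
      (H1.le_normalizer_sup le_rfl (H1.normalizer_le_normalizer_centralizer P)) hP h h'
    exact ⟨n, n.2, fun θ hθ => ⟨_, hn θ hθ, fun x hx => H5.actIrr_apply _ n θ x⟩⟩

end Cfsg.Agent.S0973
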