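import Cfsg.Statements.S1169
import Cfsg.Agent.Lib.G74.Main

set_option autoImplicit false
open Cfsg

namespace Cfsg.Agent.S1169

/-- Goldschmidt's Theorem on strongly closed abelian 2-subgroups: let G be a finite simple group and S a Sylow 2-subgroup of G containing a nontrivial commutative subgroup A that is strongly closed in S. Then either S is commutative or G possesses a strongly embedded subgroup. -/
theorem result {G : Type*} [Group G] [Finite G] [IsSimpleGroup G] (S : Sylow 2 G) (A : Subgroup G) (hA : A ≠ ⊥) (hAcomm : IsMulCommutative A) (hsc : Cfsg.IsStronglyClosed A (S : Subgroup G)) : IsMulCommutative (S : Subgroup G) ∨ ∃ H : Subgroup G, Cfsg.IsStronglyEmbedded H := by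
  exact G74.goldschmidt S hA hAcomm hsc

end Cfsg.Agent.S1169
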