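import Cfsg.Statements.S1176
import Cfsg.Agent.Lib.H6.Transfer

set_option autoImplicit false
open Cfsg

namespace Cfsg.Agent.S1176

/-- Let x₀ be an involution of the finite group G and D its conjugacy class. Assume (a) for each x ∈ D the subgroup W(x) generated by the members of D commuting with x is a 2-group of nilpotency class at most 2, and (b) the product of two distinct commuting members of D again lies in D. Then for all x, y ∈ D, if xy has even order greater than 2, its order is 4. -/
theorem result {G : Type*} [Group G] [Finite G] (x₀ : G) (hx₀ : orderOf x₀ = 2) (ha : ∀ x : G, IsConj x₀ x → IsPGroup 2 ↥(Subgroup.closure {y : G | IsConj x₀ y ∧ Commute y x}) ∧ ⁅⁅Subgroup.closure {y : G | IsConj x₀ y ∧ Commute y x}, Subgroup.closure {y : G | IsConj x₀ y ∧ Commute y x}⁆, Subgroup.closure {y : G | IsConj x₀ y ∧ Commute y x}⁆ = ⊥) (hb : ∀ x y : G, IsConj x₀ x → IsConj x₀ y → x ≠ y → Commute x y → IsConj x₀ (x * y)) (x y : G) (hx : IsConj x₀ x) (hy : IsConj x₀ y) (heven : Even (orderOf (x * y)))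 (hgt : 2 < orderOf (x * y)) : orderOf (x * y) = 4 := by
  have hx2 : x * x = 1 := H6.mul_self_of_orderOf_two ((H6.isConj_orderOf_eq hx).trans hx₀)
  have hy2 : y * y = 1 := H6.mul_self_of_orderOf_two ((H6.isConj_orderOf_eq hy).trans hx₀)
  obtain ⟨m, -, he, h1, h2⟩ := H6.exists_central_involution hx2 hy2 heven
  set e := (x * y) ^ m with hedef
  have h3 : IsConj x₀ (e * y) := by
    rcases Nat.even_or_odd' m with ⟨j, rfl | rfl⟩
    · rw [hedef, H6.pow_mul_right_even hx2 hy2]; exact hy.trans (H6.isConj_conj _ _)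
    · rw [hedef, H6.pow_mul_right_odd hx2 hy2]; exact hx.trans (H6.isConj_conj _ _)
  have h4 : IsConj x₀ e := by
    have := hb (e * y) y h3 hy (fun h => H6.ne_one_of_orderOf_two he (by simpa using h))
      (h2.mul_left (Commute.refl y))
    rwa [mul_assoc, hy2, mul_one] at this
  obtain ⟨-, hW⟩ := ha e h4
  have hxW : x ∈ Subgroup.closure {y : G | IsConj x₀ y ∧ Commute y e} :=
    Subgroup.subset_closure ⟨hx, h1.symm⟩
  have hyW : y ∈ Subgroup.closure {y : G | IsConj x₀ y ∧ Commute y e} :=
    Subgroup.subset_closure ⟨hy, h2.symm⟩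
  have h5 := Subgroup.commutator_mem_commutator (Subgroup.commutator_mem_commutator hxW hyW) hxW
  rw [hW, Subgroup.mem_bot, commutatorElement_eq_one_iff_commute, commutatorElement_def,
    H6.inv_eq_of_mul_self hx2, H6.inv_eq_of_mul_self hy2] at h5
  have h6 : x * y * x * y = (x * y) ^ 2 := by rw [pow_two]; group
  rw [h6] at h5
  have h7 := H6.conj_pow_of_inverts (H6.left_inverts_mul hx2 hy2) 2
  rw [H6.commute_iff_conj_eq.1 h5.symm] at h7
  have h8 : (x * y) ^ 4 = 1 := by
    rw [show 4 = 2 + 2 from rfl, pow_add]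
    exact mul_eq_one_iff_eq_inv.2 h7
  have h9 := orderOf_dvd_of_pow_eq_one h8
  have h10 := Nat.le_of_dvd (by norm_num) h9
  obtain ⟨k, hk⟩ := heven
  omega

end Cfsg.Agent.S1176
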