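import Cfsg.Statements.S1177
import Cfsg.Agent.Lib.H6.Transfer

set_option autoImplicit false
open Cfsg

namespace Cfsg.Agent.S1177

/-- Let A be a nontrivial elementary abelian 2-subgroup of a finite group G which is a T.I. set (each conjugate of A meets A trivially or equals A) and which does not commute elementwise with any conjugate of A other than A itself. Then for every a ∈ A, a ≠ 1, every conjugate of A contained in C_G(a) is equal to A (A is weakly closed in C_G(a)). -/
theorem result {G : Type*} [Group G] [Finite G] (A : Subgroup G) (hA : Cfsg.IsElementaryAbelian 2 A) (hA1 : A ≠ ⊥) (hTI : ∀ g : G, A.map (MulAut.conj g).toMonoidHom ⊓ A = ⊥ ∨ A.map (MulAut.conj g).toMonoidHom = A) (hb : ∀ g : G, (∀ a ∈ A, ∀ b ∈ A.map (MulAut.conj g).toMonoidHom, a * b = b * a) → A.map (MulAut.conj g).toMonoidHom = A) (a : G) (ha : a ∈ A) (ha1 : a ≠ 1) (g : G) (hg : A.map (MulAut.conj g).toMonoidHom ≤ Subgroup.centralizer ({a} : Set G)) : A.map (MulAut.conj g).toMonoidHom = A := by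
  apply hb
  set B := H6.cj g A with hB
  by_contra hne
  push Not at hne
  obtain ⟨x, hx, b₀, hb₀, hxb⟩ := hne
  have hcomm := H6.isMulCommutative_iff'.1 hA.1
  have hsq : ∀ y ∈ A, y * y = 1 := fun y hy => by rw [← pow_two]; exact hA.2 y hy
  have hBsq : ∀ y ∈ B, y * y = 1 := by
    rintro _ ⟨y, hy, rfl⟩
    rw [← map_mul, hsq y hy, map_one]
  have hAB : B ⊓ A = ⊥ := by
    rcases hTI g with h | h
    · exact h
    · exfalso
      exact hxb (hcomm x hx b₀ (h ▸ hb₀))
  -- `B` normalises `A`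
  have hBA : ∀ b ∈ B, b ∈ Subgroup.normalizer (A : Set G) := by
    intro b hb'
    rcases hTI b with h | h
    · exfalso
      have h1 : a ∈ H6.cj b A ⊓ A := ⟨H6.mem_cj.2 (by
        have := Subgroup.mem_centralizer_singleton_iff.1 (hg hb')
        rw [mul_assoc, ← this, inv_mul_cancel_left]; exact ha), ha⟩
      rw [H6.cj, h] at h1
      exact ha1 h1
    · exact H6.cj_eq_self_iff.1 h
  -- an element of `A` commuting with a nontrivial element of `B` centralises `B`
  have key : ∀ y ∈ A, ∀ b ∈ B, b ≠ 1 → y * b = b * y → ∀ c ∈ B, y * c = c * y := by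
    intro y hy b hb' hb1 hyb c hc
    have hyn : y ∈ Subgroup.normalizer (B : Set G) := by
      rcases hTI (g⁻¹ * y * g) with h | h
      · exfalso
        have h1 : g⁻¹ * b * g ∈ H6.cj (g⁻¹ * y * g) A ⊓ A := ⟨H6.mem_cj.2 (by
          have h2 : (g⁻¹ * y * g)⁻¹ * (g⁻¹ * b * g) * (g⁻¹ * y * g) = g⁻¹ * (y⁻¹ * (b * y)) * g := by
            group
          rw [h2, ← hyb, inv_mul_cancel_left]
          exact H6.mem_cj.1 hb'), H6.mem_cj.1 hb'⟩
        rw [H6.cj, h, Subgroup.mem_bot] at h1
        apply hb1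
        calc b = g * (g⁻¹ * b * g) * g⁻¹ := by group
          _ = 1 := by rw [h1]; group
      · rw [hB, ← H6.cj_normalizer, H6.mem_cj]
        exact H6.cj_eq_self_iff.1 h
    have h1 : y * c * y⁻¹ * c⁻¹ ∈ B ⊓ A := by
      refine ⟨B.mul_mem (H6.conj_mem_of_mem_normalizer hyn hc) (B.inv_mem hc), ?_⟩
      have := mul_mem hy (H6.conj_mem_of_mem_normalizer (hBA c hc) (inv_mem hy))
      simpa [mul_assoc] using this
    rw [hAB, Subgroup.mem_bot, mul_inv_eq_one, mul_inv_eq_iff_eq_mul] at h1
    exact h1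
  let φ : B → (A ⊓ Subgroup.centralizer (B : Set G) : Subgroup G) := fun b =>
    ⟨x * b * x⁻¹ * (b : G)⁻¹, by
      have h1 : x * b * x⁻¹ * (b : G)⁻¹ ∈ A := by
        have := mul_mem hx (H6.conj_mem_of_mem_normalizer (hBA b b.2) (inv_mem hx))
        simpa [mul_assoc] using this
      refine ⟨h1, ?_⟩
      by_cases hb1 : (b : G) = 1
      · rw [hb1]; simp
      · intro c hc
        refine (key _ h1 b b.2 hb1 ?_ c hc).symm
        have h2 := hsq _ h1
        have h3 := H6.inv_eq_of_mul_self (hBsq b b.2)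
        have h4 := H6.inv_eq_of_mul_self (hsq x hx)
        rw [h3, h4] at h2 ⊢
        calc x * b * x * b * b = x * b * x * (b * b) := by group
          _ = x * b * x := by rw [hBsq b b.2, mul_one]
          _ = (b * b) * (x * b * x) := by rw [hBsq b b.2, one_mul]
          _ = b * ((x * b * x * b)⁻¹) := by
            rw [mul_inv_rev, mul_inv_rev, mul_inv_rev, h3, h4]; group
          _ = b * (x * b * x * b) := by rw [H6.inv_eq_of_mul_self h2]⟩
  have hφ : Function.Injective φ := by
    intro b c h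
    by_contra hbc
    have h1 : x * b * x⁻¹ * (b : G)⁻¹ = x * c * x⁻¹ * (c : G)⁻¹ := congrArg Subtype.val h
    refine hxb (key x hx ((c : G)⁻¹ * b) (mul_mem (inv_mem c.2) b.2) ?_ ?_ b₀ hb₀)
    · intro h2
      exact hbc (Subtype.ext (inv_mul_eq_one.1 h2).symm)
    · calc x * ((c : G)⁻¹ * b) = x * (c : G)⁻¹ * x⁻¹ * (x * b * x⁻¹ * (b : G)⁻¹) * b * x := by group
        _ = _ := by rw [h1]; group
  have h1 := Nat.card_le_card_of_injective φ hφ
  rw [hB, H6.card_cj] at h1
  have h2 := Subgroup.eq_of_le_of_card_ge inf_le_left h1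
  rw [← h2] at hx
  exact hxb (hx.2 b₀ hb₀).symm

end Cfsg.Agent.S1177
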