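import Cfsg.Statements.S1183
import Cfsg.Agent.Lib.H6.Transfer

set_option autoImplicit false
open Cfsg

namespace Cfsg.Agent.S1183

/-- Let z be an isolated involution of the finite group G and C = C_G(z). Then the subgroup of G generated by its elements of odd order is all of G if and only if the subgroup of C generated by its elements of odd order is all of C. -/
theorem result {G : Type*} [Group G] [Finite G] (z : G) (hz : Cfsg.IsIsolatedInvolution z) : Cfsg.pResidual 2 G = ⊤ ↔ Cfsg.pResidual 2 ↥(Subgroup.centralizer ({z} : Set G)) = ⊤ := by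
  constructor
  · intro h
    apply H6.pResidual_eq_top_of_sup_commutator
    have := H6.control_transfer (p := 2) (Subgroup.centralizer ({z} : Set G))
      ((Nat.Prime.coprime_iff_not_dvd Nat.prime_two).2 (H6.iso_odd_index hz)) (by
        intro g hg _ a ha
        obtain ⟨c, -, hc, he⟩ := H6.iso_control_fusion hz (H := ⊤) (Subgroup.le_normalizer (Subgroup.mem_top z))
          (Subgroup.mem_centralizer_singleton_iff.1 hg)
          (Subgroup.mem_centralizer_singleton_iff.1 ha) (Subgroup.mem_top a)
        exact ⟨c, Subgroup.mem_centralizer_singleton_iff.2 hc, he⟩)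
    rw [h, top_sup_eq, top_inf_eq] at this
    apply Subgroup.map_injective (Subgroup.centralizer ({z} : Set G)).subtype_injective
    rw [← this, ← MonoidHom.range_eq_map, Subgroup.range_subtype]
  · intro h
    rw [eq_top_iff]
    intro g _
    obtain ⟨k, h1, -, h2, -⟩ := H6.iso_exists_inverted hz g
    have h3 : g⁻¹ * k ∈ pResidual 2 G := by
      apply H1.map_pResidual_le 2 (Subgroup.centralizer ({z} : Set G)).subtype
      rw [h]
      exact ⟨⟨_, Subgroup.mem_centralizer_singleton_iff.2 h2⟩, trivial, rfl⟩
    have h4 : k ∈ pResidual 2 G := H1.mem_pResidual_of_coprime (Nat.coprime_two_right.2 h1)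
    simpa using mul_mem h4 (inv_mem h3)

end Cfsg.Agent.S1183
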