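import Cfsg.Statements.S1184
import Cfsg.Agent.Lib.H6.Invol

set_option autoImplicit false
open Cfsg

namespace Cfsg.Agent.S1184

/-- Let z be an isolated involution of the finite group G. If s and t are distinct conjugates of z, then st does not commute with z. -/
theorem result {G : Type*} [Group G] [Finite G] (z : G) (hz : Cfsg.IsIsolatedInvolution z) (g h : G) (hne : g * z * g⁻¹ ≠ h * z * h⁻¹) : ¬ Commute (g * z * g⁻¹ * (h * z * h⁻¹)) z := by
  intro hc
  set s := g * z * g⁻¹ with hs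
  set t := h * z * h⁻¹ with ht
  have hs' : IsConj z s := H6.isConj_conj g z
  have ht' : IsConj z t := H6.isConj_conj h z
  have hs2 := H6.iso_mul_self (H6.iso_conj hz hs')
  have ht2 := H6.iso_mul_self (H6.iso_conj hz ht')
  have h1 : (s * z) * (s * t) * (s * z)⁻¹ = (s * t)⁻¹ := by
    calc (s * z) * (s * t) * (s * z)⁻¹ = s * (z * (s * t) * z⁻¹) * s⁻¹ := by group
      _ = (s * t)⁻¹ := by rw [H6.commute_iff_conj_eq.1 hc.symm, H6.left_inverts_mul hs2 ht2]
  have h2 : Commute ((s * z) ^ 2) (s * t) := by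
    rw [H6.commute_iff_conj_eq]
    calc (s * z) ^ 2 * (s * t) * ((s * z) ^ 2)⁻¹
        = (s * z) * ((s * z) * (s * t) * (s * z)⁻¹) * (s * z)⁻¹ := by rw [pow_two]; group
      _ = (s * z) * (s * t)⁻¹ * (s * z)⁻¹ := by rw [h1]
      _ = ((s * z) * (s * t) * (s * z)⁻¹)⁻¹ := by group
      _ = s * t := by rw [h1, inv_inv]
  have h3 := H6.commute_of_commute_sq_of_odd (H6.iso_odd hz hs' (IsConj.refl z)) h2
  rw [H6.commute_iff_conj_eq.1 h3] at h1
  have h4 : s * t = 1 := H6.eq_one_of_odd_of_mul_self (H6.iso_odd hz hs' ht')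
    (mul_eq_one_iff_eq_inv.2 h1)
  apply hne
  rw [eq_inv_of_mul_eq_one_left h4, H6.inv_eq_of_mul_self ht2]

end Cfsg.Agent.S1184
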