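import Cfsg.Statements.S1185
import Cfsg.Agent.Lib.H6.Invol

set_option autoImplicit false
open Cfsg

namespace Cfsg.Agent.S1185

/-- Let z be an isolated involution of the finite group G with centralizer C. Then for every g ∈ G there is exactly one element k in the coset gC that has odd order and is inverted by z. -/
theorem result {G : Type*} [Group G] [Finite G] (z : G) (hz : Cfsg.IsIsolatedInvolution z) (g : G) : ∃! k : G, (Odd (orderOf k) ∧ z * k * z⁻¹ = k⁻¹) ∧ g⁻¹ * k ∈ Subgroup.centralizer ({z} : Set G) := by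
  obtain ⟨k, h1, h2, h3, -⟩ := H6.iso_exists_inverted hz g
  have key : ∀ l : G, Commute (g⁻¹ * l) z → l * z * l⁻¹ = g * z * g⁻¹ := by
    intro l hl
    calc l * z * l⁻¹ = g * ((g⁻¹ * l) * z * (g⁻¹ * l)⁻¹) * g⁻¹ := by group
      _ = _ := by rw [H6.commute_iff_conj_eq.1 hl]
  refine ⟨k, ⟨⟨h1, h2⟩, Subgroup.mem_centralizer_singleton_iff.2 h3⟩, ?_⟩
  rintro l ⟨⟨l1, l2⟩, l3⟩
  exact H6.eq_of_inverted_of_conj_eq l1 h1 l2 h2
    ((key l (Subgroup.mem_centralizer_singleton_iff.1 l3)).trans (key k h3).symm)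

end Cfsg.Agent.S1185
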