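import Cfsg.Statements.S1186
import Cfsg.Agent.Lib.H6.Invol

set_option autoImplicit false
open Cfsg

namespace Cfsg.Agent.S1186

/-- Let z be an isolated involution of the finite group G, C = C_G(z), K the set of elements of odd order inverted by z, and s an involution of C. Then |G| = |C| · |C_K(sz)| · |C_K(s)|. -/
theorem result {G : Type*} [Group G] [Finite G] (z : G) (hz : Cfsg.IsIsolatedInvolution z) (s : G) (hs : orderOf s = 2) (hsz : Commute s z) : Nat.card G = Nat.card (Subgroup.centralizer ({z} : Set G)) * Nat.card {k : G // Odd (orderOf k) ∧ z * k * z⁻¹ = k⁻¹ ∧ Commute k (s * z)} * Nat.card {k : G // Odd (orderOf k) ∧ z * k * z⁻¹ = k⁻¹ ∧ Commute k s} := by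
  have hz2 := H6.iso_mul_self hz
  have hs2 := H6.mul_self_of_orderOf_two hs
  have hsz2 : s * z * (s * z) = 1 := by rw [hsz.symm.mul_mul_mul_comm, hs2, hz2, one_mul]
  rw [← Nat.card_prod, ← Nat.card_prod]
  symm
  let F : (Subgroup.centralizer ({z} : Set G) ×
      {k : G // Odd (orderOf k) ∧ z * k * z⁻¹ = k⁻¹ ∧ Commute k (s * z)}) ×
      {k : G // Odd (orderOf k) ∧ z * k * z⁻¹ = k⁻¹ ∧ Commute k s} → G :=
    fun x => x.2.1 * x.1.2.1 * x.1.1.1
  -- the involution of `s * a`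
  have key : ∀ (k y : G) (n : ℕ), Odd n → y ^ n = 1 → z * y * z⁻¹ = y⁻¹ → Commute y (s * z) →
      Commute k s → (s * (k * y * z * (k * y)⁻¹)) ^ n = s * (k * z * k⁻¹) := by
    intro k y n hn hy1 hy2 hy3 hk
    have h1 : s * (k * y * z * (k * y)⁻¹) = k * ((y ^ 2)⁻¹ * (s * z)) * k⁻¹ := by
      have h2 : y * z * y⁻¹ = z * (y ^ 2)⁻¹ := by
        rw [H6.conj_eq_sq_mul_of_inverts hy2, ← H6.conj_pow_of_inverts hy2 2,
          H6.inv_eq_of_mul_self hz2]
        calc y ^ 2 * z = (z * z) * y ^ 2 * z := by rw [hz2, one_mul]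
          _ = _ := by group
      calc s * (k * y * z * (k * y)⁻¹) = (s * k) * (y * z * y⁻¹) * k⁻¹ := by group
        _ = k * ((s * z) * (y ^ 2)⁻¹) * k⁻¹ := by rw [← hk.eq, h2]; group
        _ = _ := by rw [← (hy3.pow_left 2).inv_left.eq]
    obtain ⟨m, rfl⟩ := hn
    rw [h1, conj_pow, (hy3.pow_left 2).inv_left.mul_pow, inv_pow, ← pow_mul, mul_comm 2, pow_mul,
      hy1, one_pow, inv_one, one_mul, pow_succ, pow_mul, pow_two, hsz2, one_pow, one_mul]
    calc k * (s * z) * k⁻¹ = (k * s) * z * k⁻¹ := by group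
      _ = _ := by rw [hk.eq]; group
  refine Nat.card_eq_of_bijective F ⟨?_, ?_⟩
  · rintro ⟨⟨⟨c, hc⟩, ⟨y, hy1, hy2, hy3⟩⟩, ⟨k, hk1, hk2, hk3⟩⟩
      ⟨⟨⟨c', hc'⟩, ⟨y', hy1', hy2', hy3'⟩⟩, ⟨k', hk1', hk2', hk3'⟩⟩ h
    simp only [F] at h
    have hc0 := H6.commute_iff_conj_eq.1 (Subgroup.mem_centralizer_singleton_iff.1 hc)
    have hc0' := H6.commute_iff_conj_eq.1 (Subgroup.mem_centralizer_singleton_iff.1 hc')
    have h1 : k * y * z * (k * y)⁻¹ = k' * y' * z * (k' * y')⁻¹ := by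
      calc k * y * z * (k * y)⁻¹ = k * y * (c * z * c⁻¹) * (k * y)⁻¹ := by rw [hc0]
        _ = (k * y * c) * z * (k * y * c)⁻¹ := by group
        _ = (k' * y' * c') * z * (k' * y' * c')⁻¹ := by rw [h]
        _ = k' * y' * (c' * z * c'⁻¹) * (k' * y')⁻¹ := by group
        _ = _ := by rw [hc0']
    have h2 := key k y (orderOf y * orderOf y') (hy1.mul hy1')
      (by rw [pow_mul, pow_orderOf_eq_one, one_pow]) hy2 hy3 hk3
    have h3 := key k' y' (orderOf y * orderOf y') (hy1.mul hy1')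
      (by rw [mul_comm, pow_mul, pow_orderOf_eq_one, one_pow]) hy2' hy3' hk3'
    rw [h1, h3] at h2
    have hk : k = k' :=
      H6.eq_of_inverted_of_conj_eq hk1 hk1' hk2 hk2' (mul_left_cancel h2).symm
    subst hk
    have hy : y = y' := by
      refine H6.eq_of_inverted_of_conj_eq hy1 hy1' hy2 hy2' ?_
      calc y * z * y⁻¹ = k⁻¹ * (k * y * z * (k * y)⁻¹) * k := by group
        _ = _ := by rw [h1]; group
    subst hy
    have : c = c' := mul_left_cancel h
    subst this
    rfl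
  · intro g
    -- it suffices to write `g z g⁻¹` as `(k y) z (k y)⁻¹`
    suffices H : ∃ k y : G, (Odd (orderOf k) ∧ z * k * z⁻¹ = k⁻¹ ∧ Commute k s) ∧
        (Odd (orderOf y) ∧ z * y * z⁻¹ = y⁻¹ ∧ Commute y (s * z)) ∧
        k * y * z * (k * y)⁻¹ = g * z * g⁻¹ by
      obtain ⟨k, y, hk, hy, he⟩ := H
      refine ⟨⟨⟨⟨(k * y)⁻¹ * g, ?_⟩, ⟨y, hy⟩⟩, ⟨k, hk⟩⟩, by simp [F, mul_assoc]⟩
      rw [Subgroup.mem_centralizer_singleton_iff]
      apply H6.commute_iff_conj_eq.2
      calc (k * y)⁻¹ * g * z * ((k * y)⁻¹ * g)⁻¹ = (k * y)⁻¹ * (g * z * g⁻¹) * (k * y) := by group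
        _ = z := by rw [← he]; group
    set a := g * z * g⁻¹ with ha
    have ha' : IsConj z a := H6.isConj_conj g z
    have ha2 := H6.iso_mul_self (H6.iso_conj hz ha')
    by_cases hsz' : s = z
    · subst hsz'
      obtain ⟨m, -, h1, -, h2, h3⟩ := H6.iso_exists_conj hz ha' (IsConj.refl s)
      exact ⟨1, m, ⟨by simp, by simp, by simp⟩, ⟨h1, h2, by simp [hs2]⟩, by simpa using h3⟩
    have hns : ¬ IsConj z s := fun h => hsz' (H6.iso_eq_of_commute hz h (IsConj.refl z) hsz)
    have hev : Even (orderOf (s * a)) := by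
      by_contra h
      exact hns (ha'.trans (H6.isConj_of_odd hs2 ha2 (Nat.not_even_iff_odd.1 h)))
    obtain ⟨m, -, he, he1, he2⟩ := H6.exists_central_involution hs2 ha2 hev
    set e := (s * a) ^ m with hedef
    have ha0 : IsConj z (e * s) := by
      rcases Nat.even_or_odd' m with ⟨j, rfl | rfl⟩
      · exfalso
        have h1 : IsConj z (e * a) := by
          rw [hedef, H6.pow_mul_right_even hs2 ha2]; exact ha'.trans (H6.isConj_conj _ _)
        have := H6.iso_eq_of_commute hz h1 ha' (he2.mul_left (Commute.refl a))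
        exact H6.ne_one_of_orderOf_two he (by simpa using this)
      · rw [hedef, H6.pow_mul_left_odd hs2 ha2]; exact ha'.trans (H6.isConj_conj _ _)
    obtain ⟨k, hk0, hk1, -, hk2, hk3⟩ := H6.iso_exists_conj hz ha0 (IsConj.refl z)
    obtain ⟨y, hy0, hy1, -, hy2, hy3⟩ := H6.iso_exists_conj hz ha' ha0
    have hks : Commute k s := by
      have : k ∈ Subgroup.centralizer ({s} : Set G) := by
        refine Subgroup.zpowers_le.2 ?_ hk0
        exact Subgroup.mem_centralizer_singleton_iff.2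
          ((he1.mul_left (Commute.refl s)).mul_left hsz.symm)
      exact Subgroup.mem_centralizer_singleton_iff.1 this
    have hye : Commute y e := by
      have : y ∈ Subgroup.centralizer ({e} : Set G) := by
        refine Subgroup.zpowers_le.2 ?_ hy0
        exact Subgroup.mem_centralizer_singleton_iff.2
          (he2.symm.mul_left ((Commute.refl e).mul_left he1.symm))
      exact Subgroup.mem_centralizer_singleton_iff.1 this
    refine ⟨k, k⁻¹ * y * k, ⟨hk1, hk2, hks⟩, ⟨by rwa [H6.orderOf_conj'], ?_, ?_⟩, ?_⟩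
    · calc z * (k⁻¹ * y * k) * z⁻¹ = k⁻¹ * ((k * z * k⁻¹) * y * (k * z * k⁻¹)⁻¹) * k := by group
        _ = _ := by rw [hk3, hy2]; group
    · rw [← H6.commute_conj_iff (g := k)]
      have h1 : k * (s * z) * k⁻¹ = e := by
        calc k * (s * z) * k⁻¹ = (k * s * k⁻¹) * (k * z * k⁻¹) := by group
          _ = s * (e * s) := by rw [H6.commute_iff_conj_eq.1 hks, hk3]
          _ = e := by rw [he1.eq, ← mul_assoc, hs2, one_mul]
      rw [h1]
      simpa [mul_assoc] using hye
    · calc k * (k⁻¹ * y * k) * z * (k * (k⁻¹ * y * k))⁻¹ = y * (k * z * k⁻¹) * y⁻¹ := by group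
        _ = a := by rw [hk3, hy3]

end Cfsg.Agent.S1186
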