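import Cfsg.Statements.S1220
import Cfsg.Agent.Lib.BD.Main
import Cfsg.Agent.Lib.H2.Dihedral

set_option autoImplicit false
open Cfsg

namespace Cfsg.Agent.S1220

/-- Let H be a strongly embedded subgroup of the finite group G. Then either G acts doubly transitively on the cosets of H (H permutes transitively the cosets gH with g ∉ H), or every Sylow 2-subgroup of G is cyclic or generalized quaternion and G = O(G)H. -/
theorem result {G : Type*} [Group G] [Finite G] (H : Subgroup G) (hH : Cfsg.IsStronglyEmbedded H) : (∀ g₁ g₂ : G, g₁ ∉ H → g₂ ∉ H → ∃ h ∈ H, g₂⁻¹ * (h * g₁) ∈ H) ∨ ((∀ S : Sylow 2 G, IsCyclic S ∨ ∃ m : ℕ, 1 ≤ m ∧ Nonempty ((S : Subgroup G) ≃* QuaternionGroup (2 ^ m))) ∧ Cfsg.oddCore G ⊔ H = ⊤) := by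
  open Cfsg.Agent.BD Cfsg.Agent.BD.P1 Cfsg.Agent.FT Cfsg.Agent.H6 in
  by_cases h4 : Four (⊤ : Subgroup G)
  · refine Or.inl fun g₁ g₂ h1 h2 => ?_
    obtain ⟨Q, -, hQ, -, htr⟩ := bender (one_of_se hH) (top_not_le_St hH.1) h4 _
      (del_of_se hH (QuotientGroup.mk 1))
    obtain ⟨x, hx, e⟩ := htr (QuotientGroup.mk g₁) (QuotientGroup.mk g₂) (del_of_se hH _)
      (del_of_se hH _) (fun e => h1 (by simpa using QuotientGroup.eq.1 e.symm))
      (fun e => h2 (by simpa using QuotientGroup.eq.1 e.symm))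
    exact ⟨x, (St_mk_one H).le (hQ.le hx).2, by
      simpa [mul_assoc] using smul_mk_eq_mk_iff.1 e⟩
  · refine Or.inr ⟨fun S => ?_, by
      rw [← sup_eq_top_of_not_four hH h4, Op'_top Nat.prime_two]⟩
    refine (H2.isCyclic_or_quaternion_of_unique_subgroup 2 S.isPGroup' fun A B hA hB => ?_).imp_right
      fun h => h.2
    have key : ∀ A : Subgroup S, Nat.card A = 2 → ∃ a : S, orderOf a = 2 ∧ Subgroup.zpowers a = A :=
      fun A hA => by
        obtain ⟨a, ha, ha2⟩ := exists_orderOf_eq_of_dvd_card (p := 2) (H := A) hA.symm.dvd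
        exact ⟨a, ha2, eq_of_le_of_card_le (Subgroup.zpowers_le.2 ha) (by
          rw [Nat.card_zpowers, ha2]; exact hA.le)⟩
    obtain ⟨a, ha, rfl⟩ := key A hA
    obtain ⟨b, hb, rfl⟩ := key B hB
    obtain ⟨w, hw, hw2⟩ := exists_orderOf_eq_of_dvd_card (p := 2) (H := Zc (⊤ : Subgroup S))
      ((S.isPGroup'.to_subgroup _).card_eq_or_dvd.resolve_left fun e => Zc_ne_bot
        (nil_of_pgroup (S.isPGroup'.to_subgroup _)) (fun e => ne_one_of_orderOf_two ha
          (Subgroup.mem_bot.1 (e.le (Subgroup.mem_top a)))) (Subgroup.card_eq_one.1 e))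
    have k2 : ∀ a : S, orderOf a = 2 → a = w := fun a ha => by
      by_contra hne
      exact h4 ⟨a, Subgroup.mem_top _, w, Subgroup.mem_top _, by simpa using ha, by simpa using hw2,
        fun e => hne (Subtype.ext e), congrArg Subtype.val (hw.2 a (Subgroup.mem_top a))⟩
    rw [k2 a ha, k2 b hb]

end Cfsg.Agent.S1220
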