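import Cfsg.Statements.S1223
import Cfsg.Agent.Lib.BD.Main

set_option autoImplicit false
open Cfsg

namespace Cfsg.Agent.S1223

/-- Let H be a strongly embedded subgroup of the finite group G containing no nontrivial normal subgroup of G (so G acts faithfully on the cosets of H), u an involution of G outside H, and j ≠ 1 an element of H ∩ uHu⁻¹ with u j u⁻¹ = j⁻¹. Then C_G(j) has odd order. -/
theorem result {G : Type*} [Group G] [Finite G] (H : Subgroup G) (hH : Cfsg.IsStronglyEmbedded H) (hcore : H.normalCore = ⊥) (u : G) (hu : orderOf u = 2) (huH : u ∉ H) (j : G) (hj : j ∈ (H ⊓ H.map (MulAut.conj u).toMonoidHom)) (hj1 : j ≠ 1) (hinv : u * j * u⁻¹ = j⁻¹) : Odd (Nat.card (Subgroup.centralizer ({j} : Set G))) := by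
  open Cfsg.Agent.BD Cfsg.Agent.BD.P1 Cfsg.Agent.FT Cfsg.Agent.H6 in
  refine odd_card_iff.2 fun s hs hs2 => hj1 ?_
  have h := one_of_se hH
  have hjo : Odd (orderOf j) := odd_elt (hH.2.2 u huH) hj
  have hc := mem_cent1.1 hs
  have key : Odd (orderOf (s * u)) → j = 1 := fun ho =>
    eq_one_of_odd_of_mul_self hjo (SZ.mul_self_of_conj_odd ho (by
      rw [← hinv, show (s * u)⁻¹ * j * (s * u) = u⁻¹ * (s⁻¹ * (j * s)) * u by group, ← hc,
        inv_mul_cancel_left, inv_eq_of_orderOf_two hu]))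
  obtain ⟨c, hsc⟩ := h.ex s hs2
  by_cases huc : u • c = c
  swap
  · exact key (h.odd_mul hs2 (mul_self_of_orderOf_two hu) hsc huc)
  by_cases h4 : Four (⊤ : Subgroup G)
  swap
  · exact key (odd_elt (odd_Op' _) (h.mul_mem_O h4 ⟨Subgroup.mem_top s, hs2, hsc⟩
      (top_not_le_St hH.1 c) (Subgroup.mem_top s) hs2 (Subgroup.mem_top u) hu))
  haveI := (core_normal {2}ᶜ (⊤ : Subgroup G)).normal
  obtain ⟨Q, D, t, h3, hQ⟩ := bender_of_core h (top_not_le_St hH.1) h4 (eq_bot_iff.2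
    ((Subgroup.normal_le_normalCore.2 (Op'_le_of_se hH h4)).trans hcore.le)) (del_of_se hH c)
  have h5 := h3.mem_Q_of_sq ⟨Subgroup.mem_top u, huc⟩ (mul_self_of_orderOf_two hu)
  have h6 := mul_mem (h3.normalQ.conj_mem ⟨Subgroup.mem_top j, h.fix_of_comm hs2 hsc hc.symm⟩ h5)
    (inv_mem h5)
  rw [show j * u * j⁻¹ * u⁻¹ = j * (u * j * u⁻¹)⁻¹ by group, hinv, inv_inv] at h6
  obtain ⟨k, hk⟩ := isPGroup_subgroup_iff.1 hQ _ h6
  exact mem_of_pow_two_pow (X := ⊥) (n := k + 1) hjo (by rw [pow_succ', pow_mul, sq, hk]; exact one_mem _)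

end Cfsg.Agent.S1223
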