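import Cfsg.Statements.S1231
import Cfsg.Agent.Lib.H6.Transfer

set_option autoImplicit false
open Cfsg

namespace Cfsg.Agent.S1231

/-- Let H be a subgroup of the finite group G, p a prime, k ≥ 1, and P a Sylow p-subgroup of H whose p-rank is at least k. Then N_G(X) ≤ H for every subgroup X of P of p-rank at least k if and only if H ∩ gHg⁻¹ has p-rank less than k for every g ∉ H. -/
theorem result {G : Type*} [Group G] [Finite G] {p : ℕ} [Fact p.Prime] (k : ℕ) (hk : 1 ≤ k) (H : Subgroup G) (P : Sylow p ↥H) (hP : ¬ Cfsg.PRankLE p (k - 1) ↥(P : Subgroup ↥H)) : (∀ X : Subgroup G, X ≤ (P : Subgroup ↥H).map H.subtype → ¬ Cfsg.PRankLE p (k - 1) ↥X → Subgroup.normalizer (X : Set G) ≤ H) ↔ (∀ g : G, g ∉ H → Cfsg.PRankLE p (k - 1) ↥(H ⊓ H.map (MulAut.conj g).toMonoidHom)) := by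
  have hP' := H6.sylIn_map_subtype P
  constructor
  · intro h g hg
    by_contra hr
    have key : ∀ Q : Subgroup G, IsPGroup p Q → Q ≤ H → ¬ PRankLE p (k - 1) Q →
        Subgroup.normalizer (Q : Set G) ≤ H := by
      intro Q hQ hQH hQr
      obtain ⟨a, ha, hle⟩ := hP'.exists_cj_le hQ hQH
      have := h _ hle (by rwa [H6.pRankLE_cj_iff])
      rw [← H6.cj_normalizer, H6.cj_le_iff_le_cj, H6.cj_eq_self_of_mem (inv_mem ha)] at this
      exact this
    rw [H6.pRankLE_subgroup_iff] at hr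
    push Not at hr
    obtain ⟨A, hA, h1, h2, h3⟩ := hr
    obtain ⟨Q, hQ, hAQ⟩ := H6.exists_sylIn_ge
      (H6.isPGroup_subgroup_iff.2 fun a ha => ⟨1, by rw [pow_one, h2 a ha]⟩) hA
    have hQr : ¬ PRankLE p (k - 1) Q := fun h' =>
      absurd (H6.pRankLE_subgroup_iff.1 h' A hAQ h1 h2) (not_le.2 h3)
    have hQH : Q ≤ H := hQ.1.trans inf_le_left
    have hQH' : H6.cj g⁻¹ Q ≤ H := by
      rw [H6.cj_le_iff_le_cj, inv_inv]; exact hQ.1.trans inf_le_right
    have hn1 := key Q hQ.2.1 hQH hQr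
    have hn2 := key _ (H6.isPGroup_cj g⁻¹ hQ.2.1) hQH' (by rwa [H6.pRankLE_cj_iff])
    rw [← H6.cj_normalizer, H6.cj_le_iff_le_cj, inv_inv] at hn2
    have hQ2 : H6.SylIn p Q ⊤ := H6.sylIn_of_normalizer
      (hQ.mono (le_inf le_top Subgroup.le_normalizer) (inf_le_right.trans (le_inf hn1 hn2)))
    have hQ3 := hQ2.cj g⁻¹
    rw [H6.cj_top] at hQ3
    obtain ⟨a, ha, he⟩ := (hQ2.mono hQH le_top).exists_cj_eq (hQ3.mono hQH' le_top)
    rw [H6.cj_cj] at he
    have := hn1 (H6.cj_eq_self_iff.1 he)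
    exact hg (by simpa using mul_mem (inv_mem this) ha)
  · intro h X hX hXr g hg
    by_contra hgH
    refine hXr (H6.pRankLE_mono (le_inf (hX.trans hP'.1) ?_) (h g hgH))
    rw [← H6.cj_eq_self_iff.2 hg]
    exact H6.cj_mono g (hX.trans hP'.1)

end Cfsg.Agent.S1231
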