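import Cfsg.Statements.S1232
import Cfsg.Agent.Lib.H6.SecF

set_option autoImplicit false
open Cfsg

namespace Cfsg.Agent.S1232

/-- Let S be a finite 2-group containing an elementary abelian subgroup A of order 8 with C_S(A) = A. Then every section of S has 2-rank at most 4. -/
theorem result {S : Type*} [Group S] [Finite S] (hS : IsPGroup 2 S) (A : Subgroup S) (hA : Cfsg.IsElementaryAbelian 2 A) (hA8 : Nat.card A = 8) (hC : Subgroup.centralizer (A : Set S) = A) : Cfsg.SectionalPRankLE 2 4 S := by
  exact H6.sectionalPRankLE_of_sr_top hS (H6.sr_of_selfCentralizing_eight hS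
    (fun e he => by rw [← pow_two]; exact hA.2 e he) hA8 hC.le)

end Cfsg.Agent.S1232
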