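import Cfsg.Statements.S1234
import Cfsg.Agent.Lib.H6.SecF

set_option autoImplicit false
open Cfsg

namespace Cfsg.Agent.S1234

/-- Let S be a finite 2-group and Q ≤ S a subgroup of order 32 having an elementary abelian subgroup E of order 16 and an involution s ∉ E whose centralizer in E has order 4 (so Q ≅ (Z₂ × Z₂) ≀ Z₂). If C_S(Z(Q)) = Q, then every section of S has 2-rank at most 4. -/
theorem result {S : Type*} [Group S] [Finite S] (hS : IsPGroup 2 S) (Q E : Subgroup S) (hEQ : E ≤ Q) (hE : Cfsg.IsElementaryAbelian 2 E) (hE16 : Nat.card E = 16) (hQ32 : Nat.card Q = 32) (s : S) (hsQ : s ∈ Q) (hsE : s ∉ E) (hs : orderOf s = 2) (hfix : Nat.card ↥(E ⊓ Subgroup.centralizer ({s} : Set S)) = 4) (hC : Subgroup.centralizer (((Subgroup.center Q).map Q.subtype : Subgroup S) : Set S) = Q) : Cfsg.SectionalPRankLE 2 4 S := by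
  haveI : Fact (Nat.Prime 2) := ⟨Nat.prime_two⟩
  have hs2 := H6.mul_self_of_orderOf_two hs
  have hE2 : ∀ e ∈ E, e * e = 1 := fun e he => by rw [← pow_two]; exact hE.2 e he
  have hEc : ∀ x ∈ E, ∀ y ∈ E, x * y = y * x := fun _ hx _ hy => H6.commute_of_mul_self hE2 hx hy
  have hi : E.relIndex Q = 2 := by
    have := H6.card_eq_relIndex_mul_of_le hEQ
    rw [hE16, hQ32] at this; omega
  have hQm : ∀ g ∈ Q, g ∈ E ∨ g * s ∈ E := fun g hg => or_iff_not_imp_left.2 fun h => by
    simpa using H9.inv_mul_mem_of_relIndex_two hi (Q.inv_mem hg) hsQ (by simpa using h) hsE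
  set F := E ⊓ Subgroup.centralizer ({s} : Set S) with hF
  have hFm : ∀ x, x ∈ F ↔ x ∈ E ∧ x * s = s * x := fun x => by
    rw [hF, Subgroup.mem_inf, Subgroup.mem_centralizer_singleton_iff]
  have hsn : s ∈ Subgroup.normalizer (F : Set S) := Subgroup.centralizer_le_normalizer _
    (Subgroup.mem_centralizer_iff.2 fun x hx => ((hFm x).1 hx).2)
  have hss : s * s ∈ F := by rw [hs2]; exact F.one_mem
  have hAm : ∀ x, x ∈ F ⊔ Subgroup.zpowers s ↔ x ∈ F ∨ x * s ∈ F := fun x => by
    rw [H6.mem_sup_zpowers hsn hss, H6.inv_eq_of_mul_self hs2]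
  refine H6.sectionalPRankLE_of_sr_top hS (H6.sr_of_selfCentralizing_eight hS
    (E := F ⊔ Subgroup.zpowers s) (fun e he => ?_) ?_ fun g hg => ?_)
  · rcases (hAm e).1 he with h | h
    · exact hE2 e h.1
    · have h1 := ((hFm _).1 h).2
      rw [← mul_assoc, mul_left_inj] at h1
      have h2 := hE2 _ h.1
      rwa [(show Commute s e from h1.symm).mul_mul_mul_comm, hs2, mul_one] at h2
  · rw [H6.card_sup_zpowers_eq hsn hss (fun h => hsE h.1), hfix]
  · have hgs : g * s = s * g :=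
      (Subgroup.mem_centralizer_iff.1 hg s (Subgroup.mem_sup_right (Subgroup.mem_zpowers s))).symm
    have hgQ : g ∈ Q := by
      rw [← hC]
      refine Subgroup.mem_centralizer_iff.2 ?_
      rintro _ ⟨z, hz, rfl⟩
      have hzc : ∀ x ∈ Q, x * z = z * x := fun x hx =>
        congrArg Subtype.val (Subgroup.mem_center_iff.1 hz ⟨x, hx⟩)
      refine Subgroup.mem_centralizer_iff.1 hg _ (Subgroup.mem_sup_left ((hFm _).2
        ⟨(hQm _ z.2).resolve_right fun h => ?_, (hzc s hsQ).symm⟩))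
      have h1 : E ≤ F := fun x hx => (hFm x).2 ⟨hx, by
        have h2 := hEc x hx _ h
        rwa [← mul_assoc, hzc x (hEQ hx), mul_assoc, mul_assoc, mul_right_inj] at h2⟩
      have := H9.card_le_of_le' h1
      omega
    refine (hAm g).2 ((hQm g hgQ).imp (fun h => (hFm g).2 ⟨h, hgs⟩) fun h => (hFm _).2 ⟨h, ?_⟩)
    rw [← mul_assoc, ← hgs]

end Cfsg.Agent.S1234
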