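import Cfsg.Statements.S1235
import Cfsg.Agent.Lib.H6.SecG

set_option autoImplicit false
open Cfsg

namespace Cfsg.Agent.S1235

/-- Let G be a finite group, x an involution and T ≤ G a Sylow 2-subgroup of C_G(x) (T ≤ C_G(x) with |C_G(x) : T| odd) which is the internal direct product of a subgroup D that is dihedral (of order ≥ 4) or quasi-dihedral and a Klein four-subgroup B. Suppose that for every involution b ∈ B, T ≤ C_G(b) with |C_G(b) : T| odd. Then every section of G has 2-rank at most 4. -/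
theorem result {G : Type*} [Group G] [Finite G] (x : G) (hx : orderOf x = 2) (T D B : Subgroup G) (hT : IsPGroup 2 T) (hTx : T ≤ Subgroup.centralizer ({x} : Set G)) (hTxi : Odd (T.relIndex (Subgroup.centralizer ({x} : Set G)))) (hprod : Cfsg.IsInternalDirectProduct D B T) (hD : (∃ m : ℕ, 2 ≤ m ∧ Nonempty (D ≃* DihedralGroup m)) ∨ Cfsg.IsQuasiDihedral D) (hB : IsKleinFour B) (hTb : ∀ b ∈ B, orderOf b = 2 → T ≤ Subgroup.centralizer ({b} : Set G) ∧ Odd (T.relIndex (Subgroup.centralizer ({b} : Set G)))) : Cfsg.SectionalPRankLE 2 4 G := by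
  haveI : Fact (Nat.Prime 2) := ⟨Nat.prime_two⟩
  obtain ⟨S, hS, hTS⟩ := H6.exists_sylIn_ge (H := ⊤) hT le_top
  obtain ⟨h4, hB2⟩ := H6.isKleinFour_iff.1 hB
  have hC : ∀ b ∈ B, b ≠ 1 → S ⊓ Subgroup.centralizer ({b} : Set G) ≤ T := fun b hb h1 => by
    obtain ⟨h2, h3⟩ := hTb b hb (H6.orderOf_eq_two (hB2 b hb) h1)
    exact ((H6.sylIn_of_not_dvd_relIndex h2 hT (Nat.two_dvd_ne_zero.2 (Nat.odd_iff.1 h3))).eq_of_le
      (hS.isPGroup.to_le inf_le_left) (le_inf hTS h2) inf_le_right).le
  refine H6.sectionalPRankLE_of_sr hS ?_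
  have hDp : IsPGroup 2 D := hT.to_le hprod.1
  rcases hD with ⟨m, hm, ⟨e⟩⟩ | hD
  · rcases hm.eq_or_lt with rfl | hm
    · obtain ⟨hDT, hBT, hc, hi, hsup⟩ := hprod
      have hn : D ≤ Subgroup.normalizer (B : Set G) := fun a ha =>
        Subgroup.centralizer_le_normalizer _
          (Subgroup.mem_centralizer_iff.2 fun b hb => (hc a ha b hb).symm)
      have h1 := H2.card_sup_mul_card_inf D B hn
      rw [hsup, hi, Subgroup.card_bot, mul_one, h4, Nat.card_congr e.toEquiv,
        DihedralGroup.nat_card] at h1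
      have hD2 : ∀ d ∈ D, d * d = 1 := fun d hd => by
        have : ∀ u : DihedralGroup 2, u * u = 1 := by decide
        have h2 : (⟨d, hd⟩ : D) * ⟨d, hd⟩ = 1 := e.injective (by rw [map_mul, this, map_one])
        exact congrArg Subtype.val h2
      refine H6.SR.of_subgroup (H6.sr_of_sixteen hS.isPGroup (T := T.subgroupOf S)
        (B := B.subgroupOf S) (fun t ht => Subtype.ext ?_) ?_ (fun b hb => hBT hb) ?_
        fun b hb hb1 g hg => hC b hb (fun h => hb1 (Subtype.ext h)) ⟨g.2,
          Subgroup.mem_centralizer_singleton_iff.2 (congrArg Subtype.val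
            (Subgroup.mem_centralizer_singleton_iff.1 hg))⟩)
      · obtain ⟨d, hd, b, hb, e⟩ := H2.exists_mul_of_mem_sup hn (hsup.ge ht)
        change (t : G) * t = 1
        change (t : G) = _ at e
        rw [e, (show Commute b d from (hc d hd b hb).symm).mul_mul_mul_comm, hD2 d hd, hB2 b hb,
          mul_one]
      · rw [Nat.card_congr (Subgroup.subgroupOfEquivOfLe hTS).toEquiv, h1]
      · rw [Nat.card_congr (Subgroup.subgroupOfEquivOfLe (hBT.trans hTS)).toEquiv, h4]
    · obtain ⟨k, x, y, -, h⟩ := H6.exists_mc_of_dihedral hDp hm e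
      exact H6.sr_of_mc_prod hS.isPGroup hTS hprod h hB hC
  · obtain ⟨k, x, y, h⟩ := H6.exists_mc_of_isQuasiDihedral hD
    exact H6.sr_of_mc_prod hS.isPGroup hTS hprod h hB hC

end Cfsg.Agent.S1235
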