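import Cfsg.Statements.S1236
import Cfsg.Agent.Lib.H6.Dihedral

set_option autoImplicit false
open Cfsg

namespace Cfsg.Agent.S1236

/-- Let R be a finite group, t a central involution of R such that R ⧸ ⟨t⟩ is dihedral (of order ≥ 4) or quasi-dihedral, and A ≤ R an elementary abelian subgroup of order 8 containing t. Then C_R(A) = A. -/
theorem result {R : Type*} [Group R] [Finite R] (t : R) (ht : orderOf t = 2) (htz : t ∈ Subgroup.center R) [(Subgroup.zpowers t).Normal] (hq : (∃ m : ℕ, 2 ≤ m ∧ Nonempty (R ⧸ Subgroup.zpowers t ≃* DihedralGroup m)) ∨ Cfsg.IsQuasiDihedral (R ⧸ Subgroup.zpowers t)) (A : Subgroup R) (hA : Cfsg.IsElementaryAbelian 2 A) (hA8 : Nat.card A = 8) (htA : t ∈ A) : Subgroup.centralizer (A : Set R) = A := by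
  have hcomm := H6.isMulCommutative_iff'.1 hA.1
  refine le_antisymm ?_ fun a ha b hb => hcomm b hb a ha
  set f := QuotientGroup.mk' (Subgroup.zpowers t) with hf
  have hker : f.ker ≤ A := by rw [hf, QuotientGroup.ker_mk', Subgroup.zpowers_le]; exact htA
  have hU : IsKleinFour (A.map f) := by
    refine H6.isKleinFour_iff.2 ⟨?_, ?_⟩
    · have := H1.card_eq_card_inf_ker_mul_card_map A f
      rw [hA8, inf_eq_right.2 hker, hf, QuotientGroup.ker_mk', Nat.card_zpowers, ht] at this
      rw [hf]; omega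
    · rintro _ ⟨a, ha, rfl⟩
      rw [← map_mul, ← pow_two, hA.2 a ha, map_one]
  have key : ⊤ ⊓ Subgroup.centralizer (A.map f : Set (R ⧸ Subgroup.zpowers t)) ≤ A.map f := by
    rcases hq with ⟨m, -, ⟨e⟩⟩ | ⟨n, hn, hc, x, y, hx, hy, hxy⟩
    · obtain ⟨r, s, h⟩ := H6.Dih.of_equiv (Subgroup.topEquiv.trans e)
      exact h.centralizer_four hU le_top
    · have hi : (Subgroup.zpowers x).index = 2 := by
        have := (Subgroup.zpowers x).index_mul_card
        rw [Nat.card_zpowers, hx, hc, pow_succ'] at this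
        exact Nat.eq_of_mul_eq_mul_right (by positivity) this
      obtain ⟨k, rfl⟩ := Nat.exists_eq_add_of_le hn
      have hfix : ∀ c ∈ Subgroup.zpowers x, y * c * y⁻¹ = c → c * c = 1 := by
        rintro _ ⟨j, rfl⟩ hj
        simp only at hj ⊢
        rw [← conj_zpow, hxy, ← zpow_natCast, ← zpow_mul, zpow_eq_zpow_iff_modEq, hx] at hj
        rw [← zpow_add, ← orderOf_dvd_iff_zpow_eq_one, hx]
        have h1 := hj.dvd
        have h2 : ((2 ^ (3 + k - 1) - 1 : ℕ) : ℤ) = 4 * 2 ^ k - 1 := by
          rw [Nat.cast_sub Nat.one_le_two_pow, show 3 + k - 1 = 2 + k by omega, pow_add]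
          push_cast; ring
        rw [h2, show j - (4 * 2 ^ k - 1) * j = (j + j) * (1 - 2 * 2 ^ k) by ring] at h1
        refine IsCoprime.dvd_of_dvd_mul_right ?_ h1
        push_cast
        exact IsCoprime.pow_left ⟨2 ^ k, 1, by ring⟩
      have hy2 : y ∉ Subgroup.zpowers x := by
        intro hy2
        have := hfix x (Subgroup.mem_zpowers x) (by
          rw [H6.isMulCommutative_iff'.1 inferInstance y hy2 x (Subgroup.mem_zpowers x)]; group)
        have h3 := orderOf_dvd_of_pow_eq_one ((pow_two x).trans this)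
        rw [hx, pow_add] at h3
        have := Nat.le_of_dvd (by norm_num) h3
        have : 0 < 2 ^ k := by positivity
        omega
      refine H6.centralizer_four_le (r := x) (fun a _ b _ ha hb =>
        (Subgroup.mul_mem_iff_of_index_two hi).2 (iff_of_false ha hb)) (fun w _ hw c hc he => ?_)
        hU le_top
      apply hfix c hc
      have h3 := (Subgroup.mul_mem_iff_of_index_two hi).2 (iff_of_false hy2 hw)
      have h4 := H6.isMulCommutative_iff'.1 inferInstance _ h3 c hc
      calc y * c * y⁻¹ = y * (w * c * w⁻¹) * y⁻¹ := by rw [← he]; group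
        _ = (y * w * c) * (y * w)⁻¹ := by group
        _ = c := by rw [h4]; group
  intro c hc
  have h1 : f c ∈ A.map f := key ⟨trivial, by
    rintro _ ⟨a, ha, rfl⟩
    rw [← map_mul, ← map_mul, hc a ha]⟩
  have : c ∈ (A.map f).comap f := h1
  rwa [Subgroup.comap_map_eq, sup_eq_left.2 hker] at this

end Cfsg.Agent.S1236
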