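import Cfsg.Statements.S1238
import Cfsg.Agent.Lib.H6.RankTwo

set_option autoImplicit false
open Cfsg

namespace Cfsg.Agent.S1238

/-- Let G be a finite group of 2-rank 2 (a Klein four-subgroup but no elementary abelian subgroup of order 8) which is fusion simple: G has no subgroup of index 2 and no isolated involution. Let S be a Sylow 2-subgroup. Then S is dihedral, quasi-dihedral, wreathed, isomorphic to Z_{2^n} × Z_{2^n} for some n ≥ 2, or isomorphic to a Sylow 2-subgroup of PSU(3) over the field with 16 elements. -/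
theorem result {G : Type*} [Group G] [Finite G] (h2 : Cfsg.PRankLE 2 2 G) (h1 : ¬ Cfsg.PRankLE 2 1 G) (hidx : ∀ H : Subgroup G, H.index ≠ 2) (hiso : ∀ z : G, ¬ Cfsg.IsIsolatedInvolution z) (S : Sylow 2 G) {F : Type*} [Field F] [Fintype F] (hF : Fintype.card F = 16) (P : Sylow 2 (Cfsg.PSU 3 F 4)) : (∃ m : ℕ, 2 ≤ m ∧ Nonempty ((S : Subgroup G) ≃* DihedralGroup m)) ∨ Cfsg.IsQuasiDihedral (S : Subgroup G) ∨ Cfsg.IsWreathed (S : Subgroup G) ∨ (∃ n : ℕ, 2 ≤ n ∧ Nonempty ((S : Subgroup G) ≃* Multiplicative (ZMod (2 ^ n) × ZMod (2 ^ n)))) ∨ Nonempty ((S : Subgroup G) ≃* (P : Subgroup (Cfsg.PSU 3 F 4))) := by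
  open H6 in
  have hne : (S : Subgroup G) ≠ ⊥ := by
    obtain ⟨U, hU⟩ := exists_isKleinFour h2 h1
    refine (sylIn_top S).ne_bot (dvd_trans ?_ (Subgroup.card_dvd_of_le (le_top : U ≤ ⊤)))
    rw [(isKleinFour_iff.1 hU).1]; norm_num
  have := rank2Shape_of_fused S.isPGroup' (Cfsg.FusionSystem.groupFusionSystem_isSaturated S)
    (pRankLE_subgroup h2 _) hne fun z hz ho hzc => by
      by_contra h
      push Not at h
      refine hiso z ⟨ho, fun g hg => ?_⟩
      have hP : SylIn 2 (S : Subgroup G) (Subgroup.centralizer {z}) :=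
        sylIn_of_le S fun s hs => Subgroup.mem_centralizer_singleton_iff.2 (hzc s hs)
      obtain ⟨c, hc, hcS⟩ := hP.exists_conj_mem (x := g * z * g⁻¹) (k := 1)
        (Subgroup.mem_centralizer_singleton_iff.2 hg.symm.eq)
        (by rw [pow_one, pow_two, conj_mul_self (orderOf_eq_two_iff.1 ho).1])
      have h3 := h _ (Cfsg.FusionSystem.groupFusionSystem_isConjElt_iff.2
        ⟨hz, hcS, c * g, by group⟩)
      have h4 := Subgroup.mem_centralizer_singleton_iff.1 (inv_mem hc)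
      calc g * z * g⁻¹ = c⁻¹ * (c * (g * z * g⁻¹) * c⁻¹) * c := by group
        _ = z := by rw [h3, h4]; group
  rcases this with ⟨m, x, t, hm, h⟩ | h | h | ⟨n, y, y', hn, h⟩ | ⟨U, τ, h⟩
  · obtain ⟨e⟩ := h.nonempty_equiv (by omega)
    exact Or.inl ⟨m, hm, ⟨Subgroup.topEquiv.symm.trans e⟩⟩
  · exact Or.inr (Or.inl h)
  · exact Or.inr (Or.inr (Or.inl h))
  · obtain ⟨e⟩ := h.nonempty_equiv
    exact Or.inr (Or.inr (Or.inr (Or.inl ⟨n + 1, by omega, ⟨Subgroup.topEquiv.symm.trans e⟩⟩)))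
  · exact Or.inr (Or.inr (Or.inr (Or.inr (h.nonempty_equiv_sylow hF P))))

end Cfsg.Agent.S1238
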