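import Cfsg.Statements.S1243
import Cfsg.Agent.Lib.H6.Transfer

set_option autoImplicit false
open Cfsg

namespace Cfsg.Agent.S1243

/-- Let T be a Sylow p-subgroup of the finite group G and W ≤ T a subgroup weakly closed in T. If d and g d g⁻¹ both centralize W, then g d g⁻¹ = h d h⁻¹ for some h ∈ N_G(W). -/
theorem result {G : Type*} [Group G] [Finite G] {p : ℕ} [Fact p.Prime] (T : Sylow p G) (W : Subgroup G) (hW : Cfsg.IsWeaklyClosed W (T : Subgroup G)) (d g : G) (hd : d ∈ Subgroup.centralizer (W : Set G)) (hgd : g * d * g⁻¹ ∈ Subgroup.centralizer (W : Set G)) : ∃ h ∈ Subgroup.normalizer (W : Set G), h * d * h⁻¹ = g * d * g⁻¹ := by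
  have hWp : IsPGroup p W := T.isPGroup'.to_le hW.1
  have h1 : W ≤ Subgroup.centralizer ({d} : Set G) := fun w hw =>
    Subgroup.mem_centralizer_singleton_iff.2 (hd w hw)
  have h2 : H6.cj g⁻¹ W ≤ Subgroup.centralizer ({d} : Set G) := by
    rw [H6.cj_le_iff_le_cj, inv_inv, H6.cj_centralizer_singleton]
    exact fun w hw => Subgroup.mem_centralizer_singleton_iff.2 (hgd w hw)
  obtain ⟨P, hP, hWP⟩ := H6.exists_sylIn_ge hWp h1
  obtain ⟨c, hc, hle⟩ := hP.exists_cj_le (H6.isPGroup_cj g⁻¹ hWp) h2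
  rw [H6.cj_cj] at hle
  have := H6.weaklyClosed_cj_eq hW hP.2.1 (a := c * g⁻¹) (b := 1) hle (by rwa [H6.cj_one])
  rw [H6.cj_one] at this
  refine ⟨(c * g⁻¹)⁻¹, inv_mem (H6.cj_eq_self_iff.1 this), ?_⟩
  have h3 := Subgroup.mem_centralizer_singleton_iff.1 hc
  calc (c * g⁻¹)⁻¹ * d * (c * g⁻¹)⁻¹⁻¹ = g * (c⁻¹ * (d * c)) * g⁻¹ := by group
    _ = _ := by rw [← h3]; group

end Cfsg.Agent.S1243
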