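import Cfsg.Statements.S1244
import Cfsg.Agent.Lib.H6.Transfer
import Cfsg.Agent.Lib.H1.SchurZassenhaus

set_option autoImplicit false
open Cfsg

namespace Cfsg.Agent.S1244

/-- Let G be a finite group with no subgroup of index 2 whose Sylow 2-subgroup S is commutative, and let R ≤ S be a subgroup whose 2-rank is exactly one less than the 2-rank r of S. Then every involution of S is conjugate, by an element of N_G(S), to an element of R. -/
theorem result {G : Type*} [Group G] [Finite G] (hG : ∀ H : Subgroup G, H.index ≠ 2) (S : Sylow 2 G) (hS : IsMulCommutative (S : Subgroup G)) (r : ℕ) (hr1 : 1 ≤ r) (hSr : Cfsg.PRankLE 2 r (S : Subgroup G) ∧ ¬ Cfsg.PRankLE 2 (r - 1) (S : Subgroup G)) (R : Subgroup G) (hRS : R ≤ S) (hRr : Cfsg.PRankLE 2 (r - 1) R ∧ (r = 1 ∨ ¬ Cfsg.PRankLE 2 (r - 2) R)) (t : G) (ht : orderOf t = 2) (htS : t ∈ S) : ∃ n ∈ Subgroup.normalizer ((S : Subgroup G) : Set G), n * t * n⁻¹ ∈ R := by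
  by_contra hne
  push Not at hne
  have hcomm := H6.isMulCommutative_iff'.1 hS
  set V := H1.powKer (S : Subgroup G) 2 with hV
  have hVS : V ≤ S := fun x hx => hx.1
  have hV2 : IsPGroup 2 V := S.isPGroup'.to_le hVS
  have hW2 : IsPGroup 2 (V ⊓ R : Subgroup G) := hV2.to_inf_left
  obtain ⟨a, ha⟩ := hV2.exists_card_eq
  obtain ⟨b, hb⟩ := hW2.exists_card_eq
  have h1 : Nat.card V ≤ 2 ^ r := H6.pRankLE_subgroup_iff.1 hSr.1 V hVS
    (fun x hx y hy => hcomm x hx.1 y hy.1) (fun x hx => hx.2)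
  have h2 : Nat.card (V ⊓ R : Subgroup G) ≤ 2 ^ (r - 1) :=
    H6.pRankLE_subgroup_iff.1 hRr.1 _ inf_le_right
      (fun x hx y hy => hcomm x hx.1.1 y hy.1.1) (fun x hx => hx.1.2)
  have h3 : 2 ^ (r - 1) < Nat.card V := by
    by_contra h
    refine hSr.2 (H6.pRankLE_subgroup_iff.2 fun A hA _ hA2 => ?_)
    exact (Subgroup.card_le_of_le fun x hx => (⟨hA hx, hA2 x hx⟩ : x ∈ V)).trans (not_lt.1 h)
  rw [ha] at h1 h3
  rw [hb] at h2
  have h1' := (Nat.pow_le_pow_iff_right (by norm_num : 1 < 2)).1 h1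
  have h2' := (Nat.pow_le_pow_iff_right (by norm_num : 1 < 2)).1 h2
  have h3' := (Nat.pow_lt_pow_iff_right (by norm_num : 1 < 2)).1 h3
  have h4 : b = r - 1 := by
    rcases hRr.2 with h | h
    · omega
    · have h5 : 2 ^ (r - 2) < Nat.card (V ⊓ R : Subgroup G) := by
        by_contra h'
        refine h (H6.pRankLE_subgroup_iff.2 fun A hA _ hA2 => ?_)
        exact (Subgroup.card_le_of_le fun x hx =>
          (⟨⟨hRS (hA hx), hA2 x hx⟩, hA hx⟩ : x ∈ V ⊓ R)).trans (not_lt.1 h')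
      rw [hb] at h5
      have := (Nat.pow_lt_pow_iff_right (by norm_num : 1 < 2)).1 h5
      omega
  have h5 : (V ⊓ R).relIndex V = 2 := by
    have := H6.card_eq_relIndex_mul (inf_le_left : V ⊓ R ≤ V)
    rw [ha, hb, h4, show a = (r - 1) + 1 by omega, pow_succ'] at this
    exact (Nat.eq_of_mul_eq_mul_right (by positivity) this).symm
  have ht2 := H6.mul_self_of_orderOf_two ht
  have hWS : V ⊓ R ≤ S := inf_le_left.trans hVS
  have htR : t ∉ R := by simpa using hne 1 (one_mem _)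
  have e1 : ((V ⊓ R).subgroupOf (S : Subgroup G)).Normal :=
    Subgroup.normal_subgroupOf_of_le_normalizer fun s hs => Subgroup.centralizer_le_normalizer _
      fun x hx => hcomm x (hWS hx) s hs
  have e2 : ∀ x ∈ (S : Subgroup G), ∀ y ∈ (S : Subgroup G), x * y * x⁻¹ * y⁻¹ ∈ V ⊓ R := by
    intro x hx y hy
    rw [hcomm x hx y hy, mul_inv_cancel_right, mul_inv_cancel]
    exact one_mem _
  have e3 : Nat.Coprime 2 (S : Subgroup G).index :=
    (Nat.Prime.coprime_iff_not_dvd Nat.prime_two).2 S.not_dvd_index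
  have e4 : t ∉ V ⊓ R := fun h => htR (Subgroup.mem_inf.1 h).2
  have e5 : t ^ 2 ^ 1 ∈ V ⊓ R := by rw [pow_one, pow_two, ht2]; exact one_mem _
  have e6 : t ∈ pResidual 2 G ⊔ commutator G :=
    Subgroup.mem_sup_left (by rw [H6.pResidual_two_eq_top_iff.2 hG]; trivial)
  refine H6.not_mem_pResidual_of_controlled e1 e2 e3 htS e4 e5 (fun m c hc => ?_) e6
  rcases Nat.even_or_odd' m with ⟨j, rfl | rfl⟩
  · simp [pow_mul, pow_two, ht2]
  · rw [pow_succ, pow_mul, pow_two, ht2, one_pow, one_mul] at hc ⊢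
    obtain ⟨n, hn, he⟩ := S.conj_eq_normalizer_conj_of_mem t c⁻¹ htS (by rw [inv_inv]; exact hc)
    have h6 : c * t * c⁻¹ ∉ R := by
      have := hne n⁻¹ (inv_mem hn)
      rw [inv_inv] at this he
      rwa [he]
    have h7 : c * t * c⁻¹ ∈ V := ⟨hc, by rw [pow_two]; exact H6.conj_mul_self ht2 c⟩
    have h8 : t⁻¹ ∈ V := inv_mem ⟨htS, by rw [pow_two]; exact ht2⟩
    exact (Subgroup.mul_mem_iff_of_index_two h5 (a := ⟨_, h7⟩) (b := ⟨_, h8⟩)).2
      (iff_of_false (fun h => h6 h.2) (fun h => htR (R.inv_mem_iff.1 h.2)))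

end Cfsg.Agent.S1244
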