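import Cfsg.Statements.S1245
import Cfsg.Agent.Lib.AB.B

set_option autoImplicit false
open Cfsg

namespace Cfsg.Agent.S1245

/-- Let G be a non-abelian finite simple group with commutative Sylow 2-subgroups, and t an involution whose centralizer is the internal direct product of ⟨t⟩ and a subgroup E which has a normal subgroup E₀ ≅ PSL(2,F), |F| odd, with C_E(E₀) = 1 (so PSL(2,q) ≤ E ≤ Aut PSL(2,q)). Then C_G(t) is a maximal subgroup of G. -/
theorem result {G : Type*} [Group G] [Finite G] [IsSimpleGroup G] (hna : ¬ IsMulCommutative G) (S : Sylow 2 G) (hS : IsMulCommutative (S : Subgroup G)) (t : G) (ht : orderOf t = 2) (E E₀ : Subgroup G) (hprod : Cfsg.IsInternalDirectProduct (Subgroup.zpowers t) E (Subgroup.centralizer ({t} : Set G))) (hE₀E : E₀ ≤ E) (hE₀n : (E₀.subgroupOf E).Normal) (hE₀ : ∃ (F : Type) (_ : Field F) (_ : Fintype F), Odd (Fintype.card F) ∧ Nonempty (E₀ ≃* Matrix.ProjectiveSpecialLinearGroup (Fin 2) F)) (hCE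 : E ⊓ Subgroup.centralizer (E₀ : Set G) = ⊥) : IsCoatom (Subgroup.centralizer ({t} : Set G)) := by
  obtain ⟨F, _, _, ho, e⟩ := hE₀
  obtain ⟨-, h1, h2, h3, h4⟩ := hprod
  have tt := H6.mul_self_of_orderOf_two ht
  refine AB.Cn.coatom (q := Fintype.card F) ⟨ht, h1, fun e => H6.ne_one_of_orderOf_two ht
    (Subgroup.mem_bot.1 (h3 ▸ ⟨Subgroup.mem_zpowers t, e⟩)), fun x hx => ?_,
    ⟨hE₀E, Subgroup.le_normalizer_of_normal_subgroupOf hE₀E⟩, hCE, F, _, _, rfl, ho, e⟩
    fun P hP => St.comm_of_syl_comm (H1.isSylowIn_top S) hS hP le_top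
  obtain ⟨a, ⟨k, rfl⟩, b, hb, rfl⟩ := (H9.mem_sup_of_le_normalizer ((FT.cent_comm.1
    (FT.cent_zpowers (x := t) ▸ h1)).trans FT.cent_le_norm)).1 (h4.ge hx)
  have h5 : ∀ j : ℤ, t ^ (2 * j) = 1 := fun j => by rw [zpow_mul, zpow_two, tt, one_zpow]
  obtain ⟨j, rfl | rfl⟩ := Int.even_or_odd' k
  · exact Or.inl (by simpa [h5] using hb)
  · exact Or.inr (by simpa [zpow_add_one, h5, ← mul_assoc, tt] using hb)

end Cfsg.Agent.S1245
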