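import Cfsg.Statements.S1247
import Cfsg.Agent.Lib.H6.FStar2

set_option autoImplicit false
open Cfsg

namespace Cfsg.Agent.S1247

/-- Let G be a non-abelian finite simple group, A a maximal subgroup, F = F*(A) its generalized Fitting subgroup (viewed in G), and S ≤ F a subgroup subnormal in F with C_F(S) ≤ S. Let B be any subgroup of G containing S. Then (a) for every prime q not dividing |F(A)|, O_q(B) ∩ A = 1; and (b) for every prime p dividing |F(A)|, O_p(B) commutes elementwise with the subgroup of F generated by its elements of order prime to p. -/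
theorem result {G : Type*} [Group G] [Finite G] [IsSimpleGroup G] (hna : ¬ IsMulCommutative G) (A : Subgroup G) (hA : IsCoatom A) (S : Subgroup G) (hSF : S ≤ (Cfsg.generalizedFittingSubgroup ↥A).map A.subtype) (hSsn : (S.subgroupOf ((Cfsg.generalizedFittingSubgroup ↥A).map A.subtype)).IsSubnormal) (hSC : (Cfsg.generalizedFittingSubgroup ↥A).map A.subtype ⊓ Subgroup.centralizer (S : Set G) ≤ S) (B : Subgroup G) (hSB : S ≤ B) : (∀ q : ℕ, q.Prime → ¬ q ∣ Nat.card (Cfsg.fittingSubgroup ↥A) → (Cfsg.pCore q ↥B).map B.subtype ⊓ A = ⊥) ∧ (∀ p : ℕ, p.Prime → p ∣ Nat.card (Cfsg.fittingSubgroup ↥A) → ∀ x ∈ (Cfsg.pCore p ↥B).map B.subtype, ∀ y ∈ (Cfsg.pResidual p ↥(Cfsg.generalizedFittingSubgroup ↥A)).map ((Cfsg.generalizedFittingSubgroup ↥A).subtype) , x * (A.subtype y) = (A.subtype y) * x) := by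
  have h : H6.Large S A := ⟨H2.sn_iff.2 ⟨hSF, hSsn⟩, hSC⟩
  have hn : ∀ q, S ≤ Subgroup.normalizer (H6.Op q B : Set G) := fun q =>
    hSB.trans (H6.le_normalizer_op q B)
  refine ⟨fun q hq hd => ?_, fun p hp hd x hx y hy => ?_⟩
  · haveI := Fact.mk hq
    exact h.eq_bot_of_isPGroup (H6.op_eq_bot_iff.2 (by rwa [H1.card_map_subtype])) inf_le_right
      (H1.le_normalizer_inf (hn q) (h.le.trans Subgroup.le_normalizer))
      (H6.isPGroup_op q B).to_inf_left
  · haveI := Fact.mk hp
    obtain ⟨y, hy, rfl⟩ := hy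
    have : pResidual p (generalizedFittingSubgroup A) ≤
        (Subgroup.centralizer (H6.Op p B : Set G)).comap
          (A.subtype.comp (generalizedFittingSubgroup A).subtype) :=
      (Subgroup.closure_le _).2 fun z hz => h.cent_of_isPGroup (H6.cent_zop_le_of_isCoatom hA)
        (fun e => H6.op_eq_bot_iff.1 e (by rwa [H1.card_map_subtype])) (H6.isPGroup_op p B) (hn p)
        (Subgroup.mem_map_of_mem _ z.2) (by
          change (orderOf ((z : A) : G)).Coprime p
          rwa [Subgroup.orderOf_coe, Subgroup.orderOf_coe])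
    exact Subgroup.mem_centralizer_iff.1 (this hy) x hx

end Cfsg.Agent.S1247
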