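import Cfsg.Statements.S1248
import Cfsg.Agent.Lib.H6.RankTwo

set_option autoImplicit false
open Cfsg

namespace Cfsg.Agent.S1248

/-- Let F be a field with 16 elements and S a Sylow 2-subgroup of PSU(3) over F (the unitary group U₃(4)). Then |S| = 64; the centre Z(S) is a Klein four-group and coincides with the subgroup generated by the involutions of S and with the derived subgroup; and every element of S ⧸ Z(S) squares to the identity, S ⧸ Z(S) having order 16. -/
theorem result {F : Type*} [Field F] [Fintype F] (hF : Fintype.card F = 16) (S : Sylow 2 (Cfsg.PSU 3 F 4)) : Nat.card S = 64 ∧ IsKleinFour (Subgroup.center (S : Subgroup (Cfsg.PSU 3 F 4))) ∧ Subgroup.center (S : Subgroup (Cfsg.PSU 3 F 4)) = Subgroup.closure {x : (S : Subgroup (Cfsg.PSU 3 F 4)) | orderOf x = 2} ∧ Subgroup.center (S : Subgroup (Cfsg.PSU 3 F 4)) = commutator (S : Subgroup (Cfsg.PSU 3 F 4)) ∧ Nat.card ((S : Subgroup (Cfsg.PSU 3 F 4)) ⧸ Subgroup.center (S : Subgroup (Cfsg.PSU 3 F 4))) = 16 ∧ ∀ x : (S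 : Subgroup (Cfsg.PSU 3 F 4)) ⧸ Subgroup.center (S : Subgroup (Cfsg.PSU 3 F 4)), x ^ 2 = 1 := by
  open H6 in
  obtain ⟨U, σ, h⟩ := exists_suz_sylow hF S
  refine ⟨h.card, h.center_eq ▸ h.four, ?_, by rw [h.center_eq, h.commutator_eq], ?_, fun x => ?_⟩
  · rw [h.center_eq]
    refine le_antisymm (fun u hu => ?_) ((Subgroup.closure_le _).2 fun x hx =>
      h.mem x (orderOf_eq_two_iff.1 hx).1)
    by_cases h1 : u = 1
    · exact h1 ▸ one_mem _
    · exact Subgroup.subset_closure (orderOf_eq_two (h.toRk2.mul_self hu) h1)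
  · have h1 := Subgroup.card_eq_card_quotient_mul_card_subgroup
      (Subgroup.center (S : Subgroup (Cfsg.PSU 3 F 4)))
    have h2 : Nat.card (Subgroup.center (S : Subgroup (Cfsg.PSU 3 F 4))) = 4 := by
      rw [h.center_eq, h.toRk2.card]
    rw [h.card, h2] at h1
    omega
  · obtain ⟨x, rfl⟩ := QuotientGroup.mk_surjective x
    rw [← QuotientGroup.mk_pow, QuotientGroup.eq_one_iff, h.center_eq, pow_two]
    exact h.mul_self_mem x

end Cfsg.Agent.S1248
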