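import Cfsg.Statements.S1255
import Cfsg.Agent.Lib.H6.Dihedral

set_option autoImplicit false
open Cfsg

namespace Cfsg.Agent.S1255

/-- Let X be a finite group whose Sylow 2-subgroup S is dihedral of order 2m ≥ 4. Then X has no subgroup of index 2 and no isolated involution if and only if either all involutions of X are conjugate, or for every Klein four-subgroup U ≤ S the index |N_X(U) : C_X(U)| equals 3 when |S| = 4 and equals 6 when |S| > 4. -/
theorem result {X : Type*} [Group X] [Finite X] (S : Sylow 2 X) (m : ℕ) (hm : 2 ≤ m) (eS : (S : Subgroup X) ≃* DihedralGroup m) : ((∀ H : Subgroup X, H.index ≠ 2) ∧ (∀ z : X, ¬ Cfsg.IsIsolatedInvolution z)) ↔ ((∀ a b : X, orderOf a = 2 → orderOf b = 2 → IsConj a b) ∨ (∀ U : Subgroup X, U ≤ S → IsKleinFour U → (Subgroup.centralizer (U : Set X)).relIndex (Subgroup.normalizer (U : Set X)) = (if Nat.card S = 4 then 3 else 6))) := by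
  obtain ⟨r, s, h⟩ := H6.Dih.of_equiv eS
  have hc := h.card
  obtain ⟨k, hk⟩ := S.isPGroup'.exists_card_eq
  obtain ⟨n, rfl⟩ : 2 ∣ m := by
    have h1 : 2 * m = 2 ^ k := hc.symm.trans hk
    have hk2 : 2 ≤ k := by
      by_contra h'
      have : 2 ^ k ≤ 2 ^ 1 := Nat.pow_le_pow_right (by norm_num) (by omega)
      omega
    obtain ⟨j, rfl⟩ := Nat.exists_eq_add_of_le hk2
    rw [pow_add] at h1
    omega
  have hn : n ≠ 0 := by omega
  have hz := h.orderOf_z hn
  have hs : orderOf s = 2 := by simpa using h.orderOf_outer 0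
  have hzs := h.z_comm hn h.s_mem
  constructor
  · rintro ⟨h1, -⟩
    left
    have key : ∀ a : X, orderOf a = 2 → IsConj a (r ^ n) := by
      intro a ha
      obtain ⟨g, hg⟩ := H6.thompson_transfer h1 S.not_dvd_index h.relIndex
        (H6.mul_self_of_orderOf_two ha)
      rw [← h.eq_z hn hg (by rw [H6.orderOf_conj, ha])]
      exact H6.isConj_conj g a
    exact fun a b ha hb => (key a ha).trans (key b hb).symm
  · intro h1
    have h2 : ∀ a b : X, orderOf a = 2 → orderOf b = 2 → IsConj a b := by
      rcases h1 with h1 | h1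
      · exact h1
      have key : ∀ a : X, orderOf a = 2 → IsConj a (r ^ n) := by
        intro a ha
        obtain ⟨g, hg⟩ := H6.exists_conj_mem_sylow S (x := a) (k := 1)
          (by rw [pow_one, ← ha, pow_orderOf_eq_one])
        refine (H6.isConj_conj g a).trans ?_
        have ha' : orderOf (g * a * g⁻¹) = 2 := by rw [H6.orderOf_conj, ha]
        obtain ⟨i, hi | hi⟩ := h.cover _ hg
        · rw [h.eq_z hn ⟨i, hi.symm⟩ ha']
        · obtain ⟨x, -, hx⟩ := H6.four_fused_of_three_dvd (h.isKleinFour hn i) (by
            rw [h1 _ (h.four_le i) (h.isKleinFour hn i)]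
            split_ifs <;> norm_num) (H6.right_mem_closure_pair _ _) (H6.left_mem_closure_pair _ _)
            (H6.ne_one_of_orderOf_two (h.orderOf_outer i)) (H6.ne_one_of_orderOf_two hz)
          rw [hi, ← hx]
          exact H6.isConj_conj _ _
      exact fun a b ha hb => (key a ha).trans (key b hb).symm
    constructor
    · intro H hH
      have := Subgroup.normal_of_index_eq_two hH
      have key : ∀ a b : X, orderOf a = 2 → orderOf b = 2 → a ∈ H → b ∈ H := by
        intro a b ha hb haH
        obtain ⟨g, rfl⟩ := isConj_iff.1 (h2 a b ha hb)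
        exact this.conj_mem a haH g
      have hzH : r ^ n ∈ H := by
        by_contra h3
        have h4 : s ∉ H := fun h4 => h3 (key _ _ hs hz h4)
        have h5 := (Subgroup.mul_mem_iff_of_index_two hH).2 (iff_of_false h3 h4)
        exact h3 (key _ _ (by simpa using h.orderOf_outer n) hz h5)
      have hsH := key _ _ hz hs hzH
      have hrH : r ∈ H := by
        have := mul_mem (key _ _ hz (h.orderOf_outer 1) hzH) hsH
        rwa [mul_assoc, h.ss, mul_one, zpow_one] at this
      have hle : (S : Subgroup X) ≤ H := by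
        intro x hx
        obtain ⟨i, rfl | rfl⟩ := h.cover x hx
        · exact zpow_mem hrH i
        · exact mul_mem (zpow_mem hrH i) hsH
      have h3 := Subgroup.index_dvd_of_le hle
      rw [hH] at h3
      exact S.not_dvd_index h3
    · intro z hz'
      exact h.z_ne_outer 0 (by
        simpa using H6.iso_eq_of_commute hz' (h2 _ _ hz'.1 hz) (h2 _ _ hz'.1 hs) hzs)

end Cfsg.Agent.S1255
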