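import Cfsg.Statements.S1256
import Cfsg.Agent.Lib.H6.Dihedral

set_option autoImplicit false
open Cfsg

namespace Cfsg.Agent.S1256

/-- Let X be a finite group whose Sylow 2-subgroup S is dihedral of order 2m ≥ 4. If |S| = 4, any two Klein four-subgroups of X are conjugate; if |S| > 4, there are Klein four-subgroups U₁, U₂ of X that are not conjugate, and every Klein four-subgroup of X is conjugate to U₁ or to U₂. -/
theorem result {X : Type*} [Group X] [Finite X] (S : Sylow 2 X) (m : ℕ) (hm : 2 ≤ m) (eS : (S : Subgroup X) ≃* DihedralGroup m) : (Nat.card S = 4 → ∀ U V : Subgroup X, IsKleinFour U → IsKleinFour V → (∃ x : X, U.map (MulAut.conj x).toMonoidHom = V)) ∧ (4 < Nat.card S → ∃ U₁ U₂ : Subgroup X, IsKleinFour U₁ ∧ IsKleinFour U₂ ∧ ¬ (∃ x : X, U₁.map (MulAut.conj x).toMonoidHom = U₂) ∧ ∀ V : Subgroup X, IsKleinFour V → (∃ x : X, V.map (MulAut.conj x).toMonoidHom = U₁) ∨ (∃ x : X, V.map (MulAut.conj x).toMonoidHom = U₂)) := by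
  obtain ⟨r, s, h⟩ := H6.Dih.of_equiv eS
  have hc := h.card
  obtain ⟨k, hk⟩ := S.isPGroup'.exists_card_eq
  have hinto : ∀ V : Subgroup X, IsKleinFour V → ∃ g : X, H6.cj g V ≤ S := fun V hV =>
    H6.exists_cj_le_sylow S (H6.isPGroup_of_mul_self (H6.isKleinFour_iff.1 hV).2)
  constructor
  · intro h4 U V hU hV
    have key : ∀ V : Subgroup X, IsKleinFour V → ∃ g : X, H6.cj g V = S := by
      intro V hV
      obtain ⟨g, hg⟩ := hinto V hV
      exact ⟨g, Subgroup.eq_of_le_of_card_ge hg (by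
        rw [H6.card_cj, hV.card_four]; exact h4.le)⟩
    obtain ⟨a, ha⟩ := key U hU
    obtain ⟨b, hb⟩ := key V hV
    exact ⟨b⁻¹ * a, by rw [← H6.cj, ← H6.cj_cj, ha, ← hb, H6.cj_inv_cj]⟩
  · intro h4
    have h5 : 4 < 2 ^ k := hk ▸ h4
    have hk3 : 3 ≤ k := by
      by_contra h'
      have : 2 ^ k ≤ 2 ^ 2 := Nat.pow_le_pow_right (by norm_num) (by omega)
      omega
    obtain ⟨j, rfl⟩ := Nat.exists_eq_add_of_le hk3
    have hm' : m = 2 * (2 * 2 ^ j) := by
      have : 2 * m = 2 ^ (3 + j) := hc.symm.trans hk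
      rw [pow_add] at this
      omega
    subst hm'
    have hn : 2 * 2 ^ j ≠ 0 := by positivity
    refine ⟨_, _, h.isKleinFour hn 0, h.isKleinFour hn 1, ?_, fun V hV => ?_⟩
    · rintro ⟨g, hg⟩
      have hg' : H6.cj g _ = _ := hg
      refine H6.not_two_classes (H6.sylIn_top S) (h.four_le 0) (g₀ := g) (hg' ▸ h.four_le 1)
        (fun a ha => ?_) (fun a ha => ?_) ?_
      · rw [hg']
        exact h.four_conj_cases hn (H6.isKleinFour_cj (h.isKleinFour hn 0) a) ha
      · rw [hg']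
        exact h.not_conj_four hn (even_two_mul _) ha
      · rw [hg']
        exact h.card_normalizer_four hn 0 1
    · obtain ⟨g, hg⟩ := hinto V hV
      obtain ⟨a, -, ha | ha⟩ := h.four_conj_cases hn (H6.isKleinFour_cj hV g) hg
      · exact Or.inl ⟨a * g, by rw [← H6.cj, ← H6.cj_cj, ha]⟩
      · exact Or.inr ⟨a * g, by rw [← H6.cj, ← H6.cj_cj, ha]⟩

end Cfsg.Agent.S1256
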