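import Cfsg.Statements.S4957
import Cfsg.Agent.Lib.TR.Main

set_option autoImplicit false
open Cfsg

namespace Cfsg.Agent.S4957

/-- Let X be a finite group and V a normal subgroup of X in which every element has order dividing the prime p, whose index in X is prime to p and which is its own centralizer in X; so V is an elementary abelian normal Sylow p-subgroup, and any complement G to V in X is a group of order prime to p acting faithfully on the vector space V by conjugation (the coprime linear setting of the k(GV) problem). Suppose a complement G to V in X is transitive by conjugation on the nonidentity elements of V. Then X has at most (order of V) conjugacy classes, and if equality holds then G is cyclic (hence, being transitive, a Singer cycle), or V has order 8 and G has order 21 (the nonabelian group of order 21 inside the simple group of order 168), or V has order 9 and G has order 16 (a semidihedral Sylow 2-subgroup of the 2-dimensional general linear group over the field with 3 elements). -/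
theorem result {X : Type*} [Group X] [Finite X] (p : ℕ) [Fact p.Prime] (V : Subgroup X) [V.Normal] (hVexp : ∀ v ∈ V, v ^ p = 1) (hidx : ¬ p ∣ V.index) (hself : Subgroup.centralizer (V : Set X) = V) (G : Subgroup X) (hGV : Subgroup.IsComplement' V G) (htrans : ∀ v ∈ V, ∀ w ∈ V, v ≠ 1 → w ≠ 1 → ∃ g ∈ G, g * v * g⁻¹ = w) : Nat.card (ConjClasses X) ≤ Nat.card V ∧ (Nat.card (ConjClasses X) = Nat.card V → (IsCyclic G ∨ (Nat.card V = 8 ∧ Nat.card G = 21) ∨ (Nat.card V = 9 ∧ Nat.card G = 16))) := by
  have hp : p.Prime := Fact.out
  have habV : ∀ a ∈ V, ∀ b ∈ V, a * b = b * a := fun a ha b hb =>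
    (Subgroup.mem_centralizer_iff.1 (hself.symm ▸ hb : b ∈ Subgroup.centralizer (V : Set X))) a ha
  have hc : ¬ p ∣ Nat.card G := hGV.symm.index_eq_card ▸ hidx
  by_cases h0 : V = ⊥
  · subst h0
    have h1 : (⊤ : Subgroup X) = ⊥ := FT.cent_bot.symm.trans hself
    have : Subsingleton X := ⟨fun a b => by
      rw [Subgroup.mem_bot.1 (h1.le (Subgroup.mem_top a)),
        Subgroup.mem_bot.1 (h1.le (Subgroup.mem_top b))]⟩
    have : Subsingleton (ConjClasses X) := ConjClasses.mk_surjective.subsingleton
    exact ⟨by rw [Subgroup.card_bot]; exact Finite.card_le_one_iff_subsingleton.2 this,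
      fun _ => Or.inl inferInstance⟩
  obtain ⟨⟨v, hv⟩, hv1⟩ := Subgroup.ne_bot_iff_exists_ne_one.1 h0
  replace hv1 : v ≠ 1 := fun e => hv1 (Subtype.ext e)
  have hV : IsElementaryAbelian p V := FT.elem_iff.2 ⟨hself.ge, hVexp⟩
  have hn : G ≤ Subgroup.normalizer (V : Set X) := by
    rw [Subgroup.normalizer_eq_top]; exact le_top
  obtain ⟨χ, h1, h2, h3, h4, h5⟩ := TR.exists_lift hp hV hn hc
  have hff : G ⊓ Subgroup.centralizer (V : Set X) = ⊥ := by
    rw [hself, inf_comm]; exact hGV.disjoint.eq_bot
  have hS : TR.St p (FT.deg χ) V G χ := ⟨hp, hV, hn, hc, hff, htrans, h3, Nat.pos_of_ne_zero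
    fun e => h0 (Subgroup.card_eq_one.1 (by rw [h3, e, pow_zero])), h1, rfl, h2, h4.trans hff, h5⟩
  classical
  have hk := H4.card_conjClasses_eq_sum_stabilizers V habV G hGV
    (h3 ▸ (hp.coprime_iff_not_dvd.2 hc).pow_left _) {1, v} (by simp [hv]) fun w hw => by
      by_cases hw1 : w = 1
      · refine ⟨1, ⟨by simp, 1, G.one_mem, by simp [hw1]⟩, ?_⟩
        rintro _ ⟨-, g, -, rfl⟩
        simp [hw1]
      · refine ⟨v, ⟨by simp, htrans w hw v hv hw1 hv1⟩, ?_⟩
        rintro _ ⟨h6, g, -, rfl⟩
        refine (Finset.mem_insert.1 h6).elim (fun e => (hw1 ?_).elim) Finset.mem_singleton.1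
        simpa using e
  rw [Finset.sum_pair hv1.symm, show G ⊓ Subgroup.centralizer ({1} : Set X) = G from
    inf_eq_left.2 fun g _ => FT.mem_cent1.2 (by simp)] at hk
  rw [hk]
  exact hS.main hv hv1

end Cfsg.Agent.S4957
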