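import Cfsg.Statements.S4959
import Cfsg.Agent.Lib.Lead.Knorr4

set_option autoImplicit false
open Cfsg

namespace Cfsg.Agent.S4959

/-- Let X be a finite group and V a normal subgroup of X in which every element has order dividing the prime p, whose index in X is prime to p and which is its own centralizer in X; so V is an elementary abelian normal Sylow p-subgroup, and any complement G to V in X is a group of order prime to p acting faithfully on the vector space V by conjugation (the coprime linear setting of the k(GV) problem). Let G be a complement to V in X, let v be in V and let H be the centralizer of v in G. Suppose there is a subgroup U of V normalized by H, on which H acts faithfully, and carrying an H-invariant bi-additive pairing β with values in the integers modulo p that is nondegenerate on U (equivalently: the restriction of the module V to H has a faithful self-dual submodule; such a v is called a real vector for G). Then the number of conjugacy classes of X is at most the order of V (the real-vector criterion for the k(GV)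 problem). The pairing is given as a function on X whose relevant values are those on pairs from U. -/
theorem result {X : Type*} [Group X] [Finite X] (p : ℕ) [Fact p.Prime] (V : Subgroup X) [V.Normal] (hVexp : ∀ v ∈ V, v ^ p = 1) (hidx : ¬ p ∣ V.index) (hself : Subgroup.centralizer (V : Set X) = V) (G : Subgroup X) (hGV : Subgroup.IsComplement' V G) (v : X) (hv : v ∈ V) (U : Subgroup X) (hUV : U ≤ V) (hUinv : ∀ h ∈ G, h * v * h⁻¹ = v → ∀ u ∈ U, h * u * h⁻¹ ∈ U) (hUfaith : ∀ h ∈ G, h * v * h⁻¹ = v → (∀ u ∈ U, h * u * h⁻¹ = u) → h = 1) (β : X → X → ZMod p) (hβl : ∀ u ∈ U, ∀ u' ∈ U, ∀ w ∈ U, β (u * u') w = β u w + β u' w) (hβr : ∀ u ∈ U, ∀ w ∈ U, ∀ w' ∈ U, β u (w * w') = β u w + β u w') (hβinv : ∀ h ∈ G, h * v * h⁻¹ = v → ∀ u ∈ U, ∀ w ∈ U, β (h * u * h⁻¹) (h * w * h⁻¹) = β u w) (hβnd : ∀ u ∈ U, (∀ w ∈ U, β u w = 0) → u = 1) : Nat.card (ConjClasses X) ≤ Nat.card V := by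
  have hp : p.Prime := Fact.out
  obtain ⟨M, hM, hpM⟩ := H4.exists_maximal_algInt hp
  have := hM.isPrime
  have habV : ∀ a ∈ V, ∀ b ∈ V, a * b = b * a := fun a ha b hb =>
    (Subgroup.mem_centralizer_iff.1 (hself.symm ▸ hb : b ∈ Subgroup.centralizer (V : Set X))) a ha
  set H := G ⊓ Subgroup.centralizer ({v} : Set X) with hH
  have hHv : ∀ h ∈ H, h * v * h⁻¹ = v := fun h hh => by
    rw [Subgroup.mem_centralizer_singleton_iff.1 hh.2, mul_inv_cancel_right]
  obtain ⟨W, _, _, ρ, e, he1, he⟩ := Lead.exists_conjRep (p := p) H U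
    (fun a ha b hb => habV a (hUV ha) b (hUV hb)) (fun a ha => hVexp a (hUV ha))
    fun h hh u hu => hUinv h hh.1 (hHv h hh) u hu
  have : Finite W := Finite.of_equiv _ e.symm
  have hc : p.Coprime (Nat.card H) := by
    rw [hp.coprime_iff_not_dvd]
    intro h
    exact hidx (hGV.symm.index_eq_card ▸ h.trans (Subgroup.card_dvd_of_le inf_le_left))
  have he0 : (e 0 : X) = 1 := by
    have := he1 0 0
    rw [add_zero] at this
    exact left_eq_mul.1 this
  let B0 : W →+ (W →ₗ[ZMod p] ZMod p) := AddMonoidHom.mk' (fun w =>
    (AddMonoidHom.mk' (fun w' => β (e w) (e w')) fun a b => by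
      rw [he1, hβr _ (e w).2 _ (e a).2 _ (e b).2]).toZModLinearMap p) fun a b => by
    ext w
    simp [he1, hβl _ (e a).2 _ (e b).2 _ (e w).2]
  let B : LinearMap.BilinForm (ZMod p) W := B0.toZModLinearMap p
  have hB : ∀ a b, B a b = β (e a) (e b) := fun a b => rfl
  obtain ⟨ψ, hψ⟩ := Lead.exists_KGood_selfDual hc hpM ρ B (fun g x y => by
    rw [hB, hB, he, he, hβinv g g.2.1 (hHv g g.2) _ (e x).2 _ (e y).2])
    (LinearMap.BilinForm.nondegenerate_iff_ker_eq_bot.2 (eq_bot_iff.2 fun x hx => by
      have : (e x : X) = 1 := hβnd _ (e x).2 fun w hw => by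
        have := LinearMap.congr_fun (LinearMap.mem_ker.1 hx) (e.symm ⟨w, hw⟩)
        rw [hB] at this
        simpa using this
      exact e.injective (Subtype.ext (this.trans he0.symm))))
  exact Lead.knorr_of_KGood hVexp hidx habV hGV hv hpM hH hUV
    (fun h hh h1 => hUfaith h hh.1 (hHv h hh) h1) e he hψ

end Cfsg.Agent.S4959
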