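import Cfsg.Statements.S5008
import Cfsg.Agent.Lib.H3.Cover
import Cfsg.Agent.Lib.H3.Section
import Cfsg.Agent.Lib.H4.Misc
import Cfsg.Agent.Lib.H2.GFusion

set_option autoImplicit false
open Cfsg

namespace Cfsg.Agent.S5008

/-- Let `G` be a finite group and `p` a prime dividing the size of no vanishing conjugacy class of `G` (a class of an element on which some irreducible complex character takes the value zero). Then `G` has a normal `p`-complement and abelian Sylow `p`-subgroups. The known proof uses the classification of finite simple groups. -/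
theorem result {G : Type*} [Group G] [Finite G] (p : ℕ) [Fact p.Prime]
    (h : ∀ x : G, (∃ χ : Cfsg.IrrCharacter G, (χ : G → ℂ) x = 0) → ¬ p ∣ (Subgroup.centralizer ({x} : Set G)).index) :
    Cfsg.HasNormalPComplement p G ∧ ∀ P : Sylow p G, IsMulCommutative (P : Subgroup G) := by
  obtain ⟨M, hM⟩ := H3.exists_isPModular (Fact.out : p.Prime)
  have : H5.PMod p M := ⟨hM⟩
  have hK := H3.not_dvd_card_blockKerSub (p := p) (H5.isPBlock_principal (M := M) (G := G))
  have h1 : ∀ g x : G, g * x * g⁻¹ * x⁻¹ ∈ H3.blockKerSub (principalBlock M G) := fun g x => by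
    refine H3.mem_blockKerSub.2 fun χ hχ => ?_
    have hd : charDegree (χ : G → ℂ) = 1 := by
      by_contra hne
      have := H4.charDegree_pos χ.2
      obtain ⟨y, hy⟩ := H4.exists_zero_of_nonlinear χ.2 (by omega)
      exact H3.apply_ne_zero_of_mem_principal hχ (h y ⟨χ, hy⟩) hy
    obtain ⟨lam, e⟩ := H3.IsCharacter_exists_linear (H3.IsIrrCharacter_isCharacter χ.2)
      (by rw [← H3.irr_charDegree, hd, Nat.cast_one])
    rw [e]
    simp [mul_right_comm (lam g : ℂ)]
  have h2 : ∀ (S : Sylow p G) (g x : G), x ∈ S → g * x * g⁻¹ ∈ S → g * x * g⁻¹ = x := by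
    intro S g x hx hg
    by_contra hne
    obtain ⟨k, hk⟩ := IsPGroup.iff_orderOf.1 S.isPGroup' ⟨_, mul_mem hg (inv_mem hx)⟩
    rw [← Subgroup.orderOf_coe] at hk
    refine hK (dvd_trans ?_ (Subgroup.orderOf_dvd_natCard _ (h1 g x)))
    rw [hk]
    refine dvd_pow_self p fun e => hne ?_
    rwa [e, pow_zero, orderOf_eq_one_iff, mul_inv_eq_one] at hk
  obtain ⟨S⟩ : Nonempty (Sylow p G) := inferInstance
  refine ⟨H2.hasNormalPComplement_of_control S fun x hx g hg => ⟨1, one_mem _, by
    rw [h2 S g x hx hg]; group⟩, fun P => ⟨⟨fun a b => Subtype.ext ?_⟩⟩⟩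
  have := h2 P a b b.2 (mul_mem (mul_mem a.2 b.2) (inv_mem a.2))
  exact mul_inv_eq_iff_eq_mul.1 this

end Cfsg.Agent.S5008
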