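import Cfsg.Statements.S5081
import Cfsg.Agent.Lib.H7.Normal

set_option autoImplicit false
open Cfsg

namespace Cfsg.Agent.S5081

/-- Let F be a saturated fusion system over a finite p-group S, P a proper subgroup of S that is fully normalized, and H the subgroup of Aut_F(P) generated by the automorphisms that extend to maps of the system defined on strictly larger subgroups of S. Then either P is not essential and H is all of Aut_F(P), or P is essential and the image of H in Out_F(P) = Aut_F(P)/Inn(P) is strongly p-embedded there. -/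
theorem result {Ω : Type*} [Group Ω] {S : Subgroup Ω} [Finite S] (p : ℕ) [Fact p.Prime] (hS : IsPGroup p S) (F : Cfsg.FusionSystem S) (hF : F.IsSaturated p) (P : Subgroup Ω) (hPS : P < S) (hPn : F.IsFullyNormalized P) (H : Subgroup (MulAut P)) (hH : H = Subgroup.closure {α : MulAut P | ∃ (Q : Subgroup Ω) (hPQ : P < Q) (φ : Q →* Ω), φ ∈ F.Hom Q ∧ ∀ x : P, φ (Subgroup.inclusion hPQ.le x) = α x}) : (¬ F.IsEssential p P ∧ H = F.autGroup P) ∨ (F.IsEssential p P ∧ ∃ _ : ((Cfsg.Inn P).subgroupOf (F.autGroup P)).Normal, Cfsg.IsStronglyPEmbedded p ((H.subgroupOf (F.autGroup P)).map (QuotientGroup.mk' ((Cfsg.Inn P).subgroupOf (F.autGroup P))))) := by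
  have e : H = F.extAut P := by
    rw [hH, FusionSystem.extAut]
    congr 1
    ext α
    constructor
    · rintro ⟨Q, hPQ, φ, hφ, h⟩
      refine ⟨Q, _, hPQ, FusionSystem.isMor_of_mem_Hom hφ, fun x hx => ?_⟩
      rw [FusionSystem.homFun_of_mem φ (hPQ.le hx), FusionSystem.equivFun_of_mem α hx]
      exact h ⟨x, hx⟩
    · rintro ⟨Q, g, hPQ, hg, h⟩
      exact ⟨Q, hPQ, _, hg.toHom_mem, fun x => (h x x.2).trans (FusionSystem.equivFun_coe α x)⟩
  rw [e]
  rcases hF.extAut_dichotomy hS hPS hPn with h | h
  · exact Or.inl h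
  · exact Or.inr ⟨h.1, inferInstance, h.2⟩

end Cfsg.Agent.S5081
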