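import Cfsg.Statements.S5087
import Cfsg.Agent.Lib.H7.Normal

set_option autoImplicit false
open Cfsg

namespace Cfsg.Agent.S5087

/-- In a saturated fusion system over a finite p-group S, a subgroup Q is normal in the system if and only if every subgroup P that equals S or is essential contains Q and every element of Aut_F(P) maps Q onto itself. -/
theorem result {Ω : Type*} [Group Ω] {S : Subgroup Ω} [Finite S] (p : ℕ) [Fact p.Prime] (hS : IsPGroup p S) (F : Cfsg.FusionSystem S) (hF : F.IsSaturated p) (Q : Subgroup Ω) : F.IsNormal Q ↔ ∀ P : Subgroup Ω, (P = S ∨ F.IsEssential p P) → (Q ≤ P ∧ ∀ α ∈ F.autGroup P, (Q.subgroupOf P).map α.toMonoidHom = Q.subgroupOf P) := by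
  constructor
  · intro h P hP
    obtain ⟨h1, h2, h3⟩ := hF.of_top_or_essential hS hP
    have hle := h.le_of_centric_radical hS h2 h3
    refine ⟨hle, fun α hα => ?_⟩
    have hi := h.weaklyClosed.isIso ((FusionSystem.isMor_of_mem_autGroup h1.le hα).mono hle)
    ext y
    constructor
    · rintro ⟨x, hx, rfl⟩
      have := hi.mapsTo x hx
      rwa [FusionSystem.equivFun_coe] at this
    · intro hy
      obtain ⟨x, hx, e⟩ := hi.surj y hy
      exact ⟨⟨x, hle hx⟩, hx, Subtype.ext (by rw [← e, FusionSystem.equivFun_of_mem α (hle hx)]; rfl)⟩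
  · intro h
    refine hF.isNormal_of_essential hS fun P hP => ⟨(h P hP).1, fun g hg x hx => ?_⟩
    exact ((h P hP).2 _ hg.toMulEquiv_mem_autGroup).le ⟨⟨x, (h P hP).1 hx⟩, hx, rfl⟩

end Cfsg.Agent.S5087
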