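import Cfsg.Statements.S5088
import Cfsg.Agent.Lib.H7.Normal

set_option autoImplicit false
open Cfsg

namespace Cfsg.Agent.S5088

/-- In a saturated fusion system over a finite p-group, a subgroup Q is normal in the system if and only if there is a chain of subgroups 1 = Q₀ ≤ Q₁ ≤ ⋯ ≤ Qₙ = Q such that each Qᵢ with i ≥ 1 is strongly closed in the system and [Q, Qᵢ] ≤ Qᵢ₋₁. -/
theorem result {Ω : Type*} [Group Ω] {S : Subgroup Ω} [Finite S] (p : ℕ) [Fact p.Prime] (hS : IsPGroup p S) (F : Cfsg.FusionSystem S) (hF : F.IsSaturated p) (Q : Subgroup Ω) : F.IsNormal Q ↔ ∃ (n : ℕ) (Qs : Fin (n + 1) → Subgroup Ω), Qs 0 = ⊥ ∧ Qs (Fin.last n) = Q ∧ Monotone Qs ∧ ∀ i : Fin n, F.StronglyClosed (Qs i.succ) ∧ ⁅Q, Qs i.succ⁆ ≤ Qs (Fin.castSucc i) := by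
  constructor
  · intro h
    have := FusionSystem.finite_of_le h.le
    obtain ⟨n, hn⟩ := H7.exists_zeta_eq (hS.to_le h.le)
    refine ⟨n, fun i => H7.zeta Q i, H7.zeta_zero Q, hn, fun i j hij => H7.zeta_monotone Q hij,
      fun i => ⟨(h.zeta _).stronglyClosed, ?_⟩⟩
    rw [Subgroup.commutator_comm]
    exact H7.commutator_zeta_le Q i
  · rintro ⟨n, Qs, h0, hn, hm, h⟩
    have hsc : ∀ i, F.StronglyClosed (Qs i) := fun i => by
      refine Fin.cases ?_ (fun i => (h i).1) i
      rw [h0]; exact F.stronglyClosed_bot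
    refine hF.isNormal_of_series hS (hn ▸ hsc _) (H7.chainOfFin_monotone hm)
      (by simp [H7.chainOfFin, ← h0]) (n := n) (by simp [H7.chainOfFin, ← hn]; rfl)
      (fun i hi => ?_) fun i hi => ?_
    · simp only [H7.chainOfFin]
      rw [dif_pos (by omega), dif_pos (by omega), Subgroup.commutator_comm]
      exact (h ⟨i, hi⟩).2
    · simp only [H7.chainOfFin]
      rw [dif_pos (by omega)]
      exact (hsc _).weaklyClosed

end Cfsg.Agent.S5088
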