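import Cfsg.Statements.S5090
import Cfsg.Agent.Lib.Lead.Model2

set_option autoImplicit false
universe u
open Cfsg

namespace Cfsg.Agent.S5090

/-- Model Theorem, existence: a constrained saturated fusion system over a finite p-group S has a model — a finite group G with an injective homomorphism of S onto a Sylow p-subgroup realizing the system and with C_G(O_p(G)) ≤ O_p(G). -/
theorem result {Ω : Type u} [Group Ω] {S : Subgroup Ω} [Finite S] (p : ℕ) [Fact p.Prime] (hS : IsPGroup p S) (F : Cfsg.FusionSystem S) (hF : F.IsConstrained p) : ∃ (G : Type u) (_ : Group G) (ι : S →* G), F.IsModel p G ι := by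
  exact Lead.exists_model hS hF

end Cfsg.Agent.S5090
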