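import Cfsg.Statements.S5094
import Cfsg.Agent.Lib.H3.ZStar
import Cfsg.Agent.Lib.H7.Normal
import Cfsg.Agent.Lib.H7.GroupFusion

set_option autoImplicit false
open Cfsg

namespace Cfsg.Agent.S5094

/-- Glauberman's Z*-Theorem in fusion language: for a finite group G with Sylow 2-subgroup S, the centre of the fusion system of G on S is the set of elements of S whose image in G/O(G) is central, O(G) being the largest normal subgroup of odd order. -/
theorem result {G : Type*} [Group G] [Finite G] (S : Sylow 2 G) : (Cfsg.groupFusionSystem (S : Subgroup G)).center = (S : Subgroup G) ⊓ (Subgroup.center (G ⧸ Cfsg.oddCore G)).comap (QuotientGroup.mk' (Cfsg.oddCore G)) := by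
  ext x
  rw [FusionSystem.IsSaturated.mem_center_iff (FusionSystem.groupFusionSystem_isSaturated S) S.isPGroup',
    Subgroup.mem_inf, Subgroup.mem_comap]
  refine and_congr_right fun hx => ⟨fun h => ?_, fun h y hy => ?_⟩
  · have hc : x ∈ (Cfsg.groupFusionSystem (S : Subgroup G)).center :=
      (FusionSystem.IsSaturated.mem_center_iff (FusionSystem.groupFusionSystem_isSaturated S) S.isPGroup').2 ⟨hx, h⟩
    have key := H3.zstar_pow S hx fun k g hg =>
      ((FusionSystem.IsSaturated.mem_center_iff (FusionSystem.groupFusionSystem_isSaturated S) S.isPGroup').1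
        (pow_mem hc k)).2 _ (FusionSystem.groupFusionSystem_isConjElt_iff.2 ⟨pow_mem hx k, hg, g, rfl⟩)
    refine Subgroup.mem_center_iff.2 fun g => ?_
    obtain ⟨g, rfl⟩ := QuotientGroup.mk'_surjective _ g
    have := (QuotientGroup.eq_one_iff _).2 (key g)
    exact (commutatorElement_eq_one_iff_commute.1 this).symm
  · obtain ⟨-, hyS, a, rfl⟩ := FusionSystem.groupFusionSystem_isConjElt_iff.1 hy
    have h1 : a * x * a⁻¹ * x⁻¹ ∈ Cfsg.pPrimeCore 2 G := by
      rw [← QuotientGroup.eq_one_iff]
      exact commutatorElement_eq_one_iff_commute.2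
        (Subgroup.mem_center_iff.1 h (QuotientGroup.mk' _ a))
    have h2 := (H1.disjoint_of_isPGroup_of_coprime S.isPGroup'
      (H1.pPrimeCore_card_coprime 2 G)).le_bot (Subgroup.mem_inf.2 ⟨mul_mem hyS (inv_mem hx), h1⟩)
    exact mul_inv_eq_one.1 h2

end Cfsg.Agent.S5094
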