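import Cfsg.Statements.S5098
import Cfsg.Agent.Lib.H7.Normalizer

set_option autoImplicit false
open Cfsg

namespace Cfsg.Agent.S5098

/-- If F is a saturated fusion system over a finite p-group S and Q is fully normalized in F, then the normalizer system N_F(Q) is a saturated fusion system over N_S(Q). -/
theorem result {Ω : Type*} [Group Ω] {S : Subgroup Ω} [Finite S] (p : ℕ) [Fact p.Prime] (hS : IsPGroup p S) (F : Cfsg.FusionSystem S) (hF : F.IsSaturated p) (Q : Subgroup Ω) (hQ : F.IsFullyNormalized Q) (E : Cfsg.FusionSystem (Cfsg.FusionSystem.normalizerIn S Q)) (hE : F.IsNormalizerSystem Q E) : E.IsSaturated p := by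
  exact hE.isSaturated hF hS hQ

end Cfsg.Agent.S5098
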