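import Cfsg.Statements.S5105
import Cfsg.Agent.Lib.Lead.Model3

set_option autoImplicit false
open Cfsg

namespace Cfsg.Agent.S5105

/-- Model Theorem, rigidity: if G is a model of a constrained fusion system over a finite p-group S (through ι : S → G), then every automorphism of G fixing ι(S) elementwise is conjugation by ι(z) for some z in the centre of S. -/
theorem result {Ω : Type*} [Group Ω] {S : Subgroup Ω} [Finite S] (p : ℕ) [Fact p.Prime] (hS : IsPGroup p S) (F : Cfsg.FusionSystem S) (hF : F.IsConstrained p) {G : Type*} [Group G] (ι : S →* G) (hG : F.IsModel p G ι) (ψ : G ≃* G) (hψ : ∀ x : S, ψ (ι x) = ι x) : ∃ z : S, z ∈ Subgroup.center S ∧ ∀ g : G, ψ g = ι z * g * (ι z)⁻¹ := by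
  obtain ⟨hfin, hre, ⟨T, hT⟩, hC⟩ := hG
  obtain ⟨z, hz, hz'⟩ := Lead.aut_eq_conj_of_fix_sylow T hC ψ (fun t ht => by
    have : t ∈ ι.range := hT ▸ ht
    obtain ⟨x, rfl⟩ := this
    exact hψ x)
  have : z ∈ ι.range := hT ▸ hz
  obtain ⟨z, rfl⟩ := this
  refine ⟨z, Subgroup.mem_center_iff.2 fun x => hre.1 ?_, hz'⟩
  have := hz' (ι x)
  rw [hψ x] at this
  rw [map_mul, map_mul]
  conv_lhs => rw [this]
  group

end Cfsg.Agent.S5105
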