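import Cfsg.Statements.S5107
import Cfsg.Agent.Lib.H7.Crit

set_option autoImplicit false
open Cfsg

namespace Cfsg.Agent.S5107

open Cfsg.FusionSystem Cfsg.Agent.H7 Cfsg.Agent.H8

/-- If a Sylow p-subgroup S of a finite group G has nilpotency class at most two and its centre is strongly closed in S with respect to G, then every map of the fusion system of G on S is conjugation by an element of N_G(S), and S is the largest subgroup normal in that fusion system. -/
theorem result {G : Type*} [Group G] [Finite G] (p : ℕ) [Fact p.Prime] (S : Sylow p G) (hcl : ⁅(S : Subgroup G), (S : Subgroup G)⁆ ≤ (S : Subgroup G) ⊓ Subgroup.centralizer ((S : Subgroup G) : Set G)) (hZ : Cfsg.IsStronglyClosed ((S : Subgroup G) ⊓ Subgroup.centralizer ((S : Subgroup G) : Set G)) (S : Subgroup G)) : (∀ (P : Subgroup G) (φ : P →* G), φ ∈ (Cfsg.groupFusionSystem (S : Subgroup G)).Hom P → ∃ g ∈ Subgroup.normalizer ((S : Subgroup G) : Set G), ∀ x : P, φ x = g * (x : G) * g⁻¹) ∧ (Cfsg.groupFusionSystem (S : Subgroup G)).core = S := by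
  have hF := groupFusionSystem_isSaturated (p := p) S
  have hZ' : (groupFusionSystem (S : Subgroup G)).StronglyClosed (centralizerIn S S) :=
    groupFusionSystem_stronglyClosed_iff.2 hZ
  have hn : (groupFusionSystem (S : Subgroup G)).IsNormal S := by
    refine hF.isNormal_of_series S.isPGroup' (stronglyClosed_top _)
      (C := fun i => (S : Subgroup G) ⊓ chain2 (centralizerIn (S : Subgroup G) S) i)
      (fun i j h => inf_le_inf_left _ (chain2_monotone _ h)) (inf_bot_eq _) (n := 2) (inf_top_eq _)
      (fun i hi => ?_) fun i hi => ?_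
    · interval_cases i
      · refine le_of_eq ((commutator_eq_bot_iff_forall.2 fun x hx y hy => ?_).trans
          (inf_bot_eq _).symm)
        exact (hx.2.2 y hy).symm
      · exact le_inf ((Subgroup.commutator_mono inf_le_left le_rfl).trans (hcl.trans inf_le_left))
          ((Subgroup.commutator_mono inf_le_left le_rfl).trans hcl)
    · interval_cases i
      · exact ((stronglyClosed_top _).inf (stronglyClosed_bot _)).weaklyClosed
      · exact ((stronglyClosed_top _).inf hZ').weaklyClosed
  refine ⟨fun P φ hφ => ?_, core_eq_top_iff.2 hn⟩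
  obtain ⟨g, hg, e⟩ := isNormal_top_iff.1 hn P _ (isMor_of_mem_Hom hφ)
  obtain ⟨-, hm, a, e'⟩ := groupFusionSystem_isMor.1 hg
  refine ⟨a, mem_normalizer_of_finite fun x hx => e' x hx ▸ hm x hx, fun x => ?_⟩
  rw [← homFun_coe φ, ← e x x.2, e' _ (hφ.1 x.2)]

end Cfsg.Agent.S5107
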