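import Cfsg.Statements.S5110
import Cfsg.Agent.Lib.H8.BCGLO
-- import your own Cfsg.Agent.* helpers here

set_option autoImplicit false
open Cfsg

namespace Cfsg.Agent.S5110

/-- Saturation criterion: let F be a fusion system over a finite p-group S and H a family of subgroups of S closed under conjugacy in F, such that every conjugacy class inside H contains a fully automized receptive member, F is the smallest fusion system over S containing all its maps with source in H, and every centric subgroup outside H is conjugate in F to some P for which Aut_S(P) ∩ O_p(Aut_F(P)) is not contained in Inn(P). Then F is saturated. -/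
theorem result {Ω : Type*} [Group Ω] {S : Subgroup Ω} [Finite S] (p : ℕ) [Fact p.Prime] (hS : IsPGroup p S) (F : Cfsg.FusionSystem S) (ℋ : Set (Subgroup Ω)) (hℋS : ∀ P ∈ ℋ, P ≤ S) (hℋconj : ∀ P ∈ ℋ, ∀ Q, F.IsConj P Q → Q ∈ ℋ) (hsat : ∀ P ∈ ℋ, ∃ Q, F.IsConj P Q ∧ F.IsFullyAutomized p Q ∧ F.IsReceptive Q) (hgen : ∀ E : Cfsg.FusionSystem S, (∀ P ∈ ℋ, F.Hom P ⊆ E.Hom P) → F ≤ E) (hstar : ∀ P : Subgroup Ω, F.IsCentric P → P ∉ ℋ → ∃ Q, F.IsConj P Q ∧ ¬ (Cfsg.autInducedBy S Q ⊓ (Cfsg.pCore p ↥(F.autGroup Q)).map (F.autGroup Q).subtype ≤ Cfsg.Inn Q)) : F.IsSaturated p := by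
  open Cfsg.FusionSystem Cfsg.Agent.H8 Cfsg.Agent.H7 in
  have hstar' : ∀ P, F.IsCentric P → P ∉ ℋ → ∃ Q, F.IsConj P Q ∧ ¬ pStar F p Q ≤ Q := by
    intro P hP hPH
    obtain ⟨Q, hc, h⟩ := hstar P hP hPH
    refine ⟨Q, hc, fun h' => h fun α hα => ?_⟩
    have : α ∈ autInducedBy (pStar F p Q) Q := by rw [autInducedBy_autPre]; exact hα
    rw [inn_eq_autInducedBy]
    exact autInducedBy_mono h' Q this
  have hSH : S ∈ ℋ := by
    by_contra h
    obtain ⟨Q, hc, h'⟩ := hstar' S (isCentric_top F) h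
    obtain rfl := hc.eq_top
    exact h' autPre_le
  exact isSaturated_of_bcglo hS (ℋ := fun P => P ∈ ℋ) (fun P Q hP => hℋconj P hP Q)
    (fun P hP _ => hsat P hP) (fun P f hf => genChain_of_generated hSH
      (fun P Q hP => hℋconj P hP Q) (fun E hE => hgen E fun P hP =>
        hom_subset_iff.2 fun f hf => hE P f hP hf) hf) hstar'

end Cfsg.Agent.S5110
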