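import Cfsg.Statements.S5112
import Cfsg.Agent.Lib.H7.Crit
import Cfsg.Agent.Lib.H2.Dihedral

set_option autoImplicit false
open Cfsg

namespace Cfsg.Agent.S5112

open Cfsg.FusionSystem Cfsg.Agent.H7 Cfsg.Agent.H8

theorem isPGroup_mulAut_cyclic {C : Type*} [Group C] [Finite C] [IsCyclic C]
    (hC : IsPGroup 2 C) : IsPGroup 2 (MulAut C) := by
  obtain ⟨k, hk⟩ := IsPGroup.iff_card.1 hC
  rcases k with _ | k
  · exact IsPGroup.of_card (n := 0) (by rw [IsCyclic.card_mulAut, hk]; simp)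
  · exact IsPGroup.of_card (n := k) (by
      rw [IsCyclic.card_mulAut, hk, Nat.totient_prime_pow_succ Nat.prime_two]; simp)

theorem aux {Ω : Type*} [Group Ω] {S : Subgroup Ω} [Finite S] (hS : IsPGroup 2 S) {c s : Ω}
    (hc : c ∈ S) (h4 : c ^ 4 ≠ 1) (hcov : ∀ y ∈ S, ∃ i : ℤ, y = c ^ i ∨ y = s * c ^ i)
    (hs : ∀ i : ℤ, (s * c ^ i) ^ 4 = 1) (B : Subgroup (MulAut S)) : IsPGroup 2 B := by
  have hC : Subgroup.zpowers c ≤ S := Subgroup.zpowers_le.2 hc
  have := finite_of_le hC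
  have hst : ∀ α : MulAut S, α ∈ stabAut S (Subgroup.zpowers c) := by
    intro α
    refine mem_stabAut_of_finite ?_
    rintro _ - ⟨k, rfl⟩
    rw [(isHomOn_equivFun α).map_zpow hc]
    refine Subgroup.zpow_mem _ ?_ k
    obtain ⟨i, h | h⟩ := hcov _ (equivFun_mem α hc)
    · exact ⟨i, h.symm⟩
    · exfalso
      have h1 := hs i
      rw [← h, ← (isHomOn_equivFun α).map_pow hc] at h1
      have h2 := equivFun_inv_apply α (S.pow_mem hc 4)
      rw [h1, (isHomOn_equivFun α⁻¹).map_one] at h2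
      exact h4 h2.symm
  refine isPGroup_of_forall_coprime fun α _ ho => ?_
  obtain ⟨β, e⟩ := exists_res hC (hst α)
  have hβ : β = 1 := eq_one_of_isPGroup_of_coprime
    ((isPGroup_mulAut_cyclic (hS.to_le hC)).to_subgroup ⊤) (Subgroup.mem_top β)
    (coprime_of_res hC e ho)
  refine mulAut_eq_one fun x hx => apply_eq_of_two_step hS ho (N := Subgroup.zpowers c)
    (fun x hx => ?_) (fun x _ hx => by rw [e x hx, hβ, equivFun_one hx]) hx
  by_cases hxc : x ∈ Subgroup.zpowers c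
  · exact Subgroup.mul_mem _ (Subgroup.inv_mem _ hxc) ((hst α x hx).2 hxc)
  have hxc' : equivFun α x ∉ Subgroup.zpowers c := fun h => hxc ((hst α x hx).1 h)
  obtain ⟨i, h | h⟩ := hcov x hx
  · exact absurd ⟨i, h.symm⟩ hxc
  obtain ⟨j, h' | h'⟩ := hcov _ (equivFun_mem α hx)
  · exact absurd ⟨j, h'.symm⟩ hxc'
  exact ⟨j - i, by rw [h', h]; group⟩

/-- If S is a dihedral or generalized quaternion 2-group of order at least 16, then in every saturated fusion system over S (at the prime 2) the automorphism group Aut_F(S) consists of the inner automorphisms of S. -/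
theorem result {Ω : Type*} [Group Ω] {S : Subgroup Ω} [Finite S] (n : ℕ) (hn : 4 ≤ n) (hshape : Nonempty (S ≃* DihedralGroup (2 ^ (n - 1))) ∨ Nonempty (S ≃* QuaternionGroup (2 ^ (n - 2)))) (F : Cfsg.FusionSystem S) (hF : F.IsSaturated 2) : F.autGroup S = Cfsg.Inn S := by
  obtain ⟨m, rfl⟩ := Nat.exists_eq_add_of_le hn
  have hne : ∀ c : Ω, orderOf c = 2 ^ (m + 3) → c ^ 4 ≠ 1 := fun c hc h => by
    have := Nat.le_of_dvd (by norm_num) (hc ▸ orderOf_dvd_of_pow_eq_one h)
    have h2 : 2 ^ 3 ≤ 2 ^ (m + 3) := Nat.pow_le_pow_right (by norm_num) (by omega)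
    omega
  rcases hshape with ⟨⟨e⟩⟩ | ⟨⟨e⟩⟩
  · have hS : IsPGroup 2 S := IsPGroup.of_card (n := 4 + m) (by
      rw [Nat.card_congr e.toEquiv, DihedralGroup.nat_card, show 4 + m = (4 + m - 1) + 1 by omega,
        pow_succ']
      rfl)
    obtain ⟨r, s, h1, h2, h3, -, h5, h6⟩ := H2.exists_gens_of_equiv_dihedral e
    refine ((hF.sylowIn_top hS).eq_of_isPGroup (aux hS (c := r) (s := s)
      (h5 ▸ Subgroup.mem_sup_left (Subgroup.mem_zpowers r))
      (hne r (by rw [h1]; congr 1; omega)) h6 (fun i => ?_) _)).symm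
    have hs : s * s = 1 := by rw [← pow_two, ← h2, pow_orderOf_eq_one]
    have : (s * r ^ i) ^ 2 = 1 := by
      rw [pow_two, mul_assoc, ← mul_assoc (r ^ i), H2.zpow_mul_of_inv h3, ← mul_assoc,
        ← mul_assoc, hs]
      group
    rw [show 4 = 2 * 2 from rfl, pow_mul, this, one_pow]
  · have hS : IsPGroup 2 S := IsPGroup.of_card (n := 2 + (4 + m - 2)) (by
      rw [Nat.card_congr e.toEquiv, H2.natCard_quaternion, pow_add]
      rfl)
    obtain ⟨r, s, h1, h2, h3, -, h5, h6⟩ := H2.exists_gens_of_equiv_quaternion e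
    refine ((hF.sylowIn_top hS).eq_of_isPGroup (aux hS (c := r) (s := s)
      (h5 ▸ Subgroup.mem_sup_left (Subgroup.mem_zpowers r))
      (hne r (by rw [h1, ← pow_succ']; congr 1; omega)) h6 (fun i => ?_) _)).symm
    have : (s * r ^ i) ^ 2 = r ^ 2 ^ (4 + m - 2) := by
      rw [pow_two, mul_assoc, ← mul_assoc (r ^ i), H2.zpow_mul_of_inv h3, ← mul_assoc,
        ← mul_assoc, h2]
      group
    rw [show (s * r ^ i) ^ 4 = ((s * r ^ i) ^ 2) ^ 2 by rw [← pow_mul], this, ← pow_mul, mul_comm,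
      ← h1, pow_orderOf_eq_one]

end Cfsg.Agent.S5112
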