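import Cfsg.Statements.S5119
import Cfsg.Agent.Lib.H8.NormalSub
-- import your own Cfsg.Agent.* helpers here

set_option autoImplicit false
open Cfsg

namespace Cfsg.Agent.S5119

/-- Let F be a saturated fusion system over a finite p-group S and E a subsystem of F over a subgroup T that is strongly closed in F. Then E is invariant in F (invariance under Aut_F(T) plus the Frattini condition) if and only if the strong invariance condition holds: for P ≤ Q ≤ T, every map φ of E from P into Q and every map ψ of F with source Q, the transported map ψ φ ψ⁻¹ on ψ(P) is a map of E. -/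
theorem result {Ω : Type*} [Group Ω] {S : Subgroup Ω} [Finite S] (p : ℕ) [Fact p.Prime] (hS : IsPGroup p S) (F : Cfsg.FusionSystem S) (hF : F.IsSaturated p) {T : Subgroup Ω} (E : Cfsg.FusionSystem T) (hE : E.IsSubsystemOf F) (hT : F.StronglyClosed T) : E.IsInvariantIn F ↔ ∀ (P Q : Subgroup Ω) (hPQ : P ≤ Q) (_ : Q ≤ T) (φ : P →* Ω) (_ : φ ∈ E.Hom P) (hφQ : ∀ x : P, φ x ∈ Q) (ψ : Q →* Ω) (_ : ψ ∈ F.Hom Q), ∃ χ ∈ E.Hom ((P.subgroupOf Q).map ψ), ∀ (x : P) (hx : ψ (Subgroup.inclusion hPQ x) ∈ (P.subgroupOf Q).map ψ), χ ⟨ψ (Subgroup.inclusion hPQ x), hx⟩ = ψ ⟨φ x, hφQ x⟩ := by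
  open Cfsg.FusionSystem Cfsg.Agent.H8 Cfsg.Agent.H7 in
  constructor
  · intro h P Q hPQ hQ φ hφ hφQ ψ hψ
    have hf := isMor_of_mem_Hom hφ
    have hg := isMor_of_mem_Hom hψ
    have hi := hg.isIso_img_of_le hPQ
    obtain ⟨k, hk, e1, -⟩ := hi.exists_symm
    have hm : ∀ x ∈ P, homFun φ x ∈ Q := fun x hx => by rw [homFun_of_mem φ hx]; exact hφQ _
    have := Inv.conj_isMor h hf hg hPQ hm hi (χ := fun y => homFun ψ (homFun φ (k y)))
      fun x hx => by rw [e1 x hx]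
    rw [← map_subgroupOf_eq_img hPQ fun x hx => (homFun_of_mem ψ hx).symm] at this
    refine ⟨_, this.toHom_mem, fun x hx => ?_⟩
    have e2 : ψ (Subgroup.inclusion hPQ x) = homFun ψ x := (homFun_of_mem ψ (hPQ x.2)).symm
    rw [IsHomOn.toHom_apply]
    simp only [e2]
    rw [e1 x x.2, homFun_coe, homFun_of_mem ψ (hφQ x)]
  · intro h
    have key : ∀ P Q f g, E.IsMor P f → F.IsMor Q g → P ≤ Q → Q ≤ T → (∀ x ∈ P, f x ∈ Q) →
        ∃ χ, E.IsMor (img P g) χ ∧ ∀ x ∈ P, χ (g x) = g (f x) := by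
      intro P Q f g hf hg hPQ hQ hm
      obtain ⟨χ, hχ, e⟩ := h P Q hPQ hQ _ hf.toHom_mem (fun x => hm x x.2) _ hg.toHom_mem
      have hχ' := isMor_of_mem_Hom hχ
      refine ⟨homFun χ, map_subgroupOf_eq_img (φ := hg.isHomOn.toHom) hPQ (fun _ _ => rfl) ▸ hχ',
        fun x hx => ?_⟩
      have hx' : hg.isHomOn.toHom (Subgroup.inclusion hPQ ⟨x, hx⟩) ∈
          (P.subgroupOf Q).map hg.isHomOn.toHom := ⟨⟨x, hPQ hx⟩, hx, rfl⟩
      exact (homFun_of_mem χ hx').trans (e ⟨x, hx⟩ hx')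
    refine isInvariantIn_of_normal hF hS hE hT (fun P f g hf hg => key P T f g hf hg.mor hf.le
      le_rfl fun x hx => hf.mem hx) fun P hP _ => le_normalizer_of_conj_mem fun b hb a ha => ?_
    have hi := isIso_of_mem_autGroup (hP.trans hT.le) hb
    obtain ⟨χ, hχ, e⟩ := key P P _ _ (isMor_of_mem_autGroup hP ha) hi.mor le_rfl hP
      fun x hx => equivFun_mem a hx
    rw [hi.img_eq] at hχ
    refine (mem_autGroup_iff hP).2 (hχ.congr fun y hy => ?_).isIso_equivFun
    obtain ⟨x, hx, rfl⟩ := hi.surj y hy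
    rw [e x hx, equivFun_conj' b a hx]

end Cfsg.Agent.S5119
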