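import Cfsg.Statements.S5121
import Cfsg.Agent.Lib.Lead.Family2
import Cfsg.Agent.Lib.H8.GroupHyp
import Cfsg.Agent.Lib.H8.Iso

set_option autoImplicit false
open Cfsg

namespace Cfsg.Agent.S5121

open Cfsg.FusionSystem Cfsg.Agent.H7 Cfsg.Agent.H8 Cfsg.Agent.Lead

section Gen
variable {Ω : Type*} [Group Ω] {S T Q : Subgroup Ω} {p : ℕ} {F : FusionSystem S}
  {E E' : FusionSystem T}

/-- Two normal subsystems over the same `T` are compared at a normal subgroup `Q` of the family. -/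
theorem sub_of_BE [Finite S] [Fact p.Prime] (hF : F.IsSaturated p) (hS : IsPGroup p S)
    (hE : E.IsNormalIn F p) (hE' : E'.IsNormalIn F p) (hQ : F.IsNormal Q) (hD : DT F T Q)
    (h : ∀ δ ∈ BE E F Q, (orderOf δ).Coprime p → δ ∈ BE E' F Q) : E.IsSubsystemOf E' := by
  have hI := hE.1.2.2
  have hI' := hE'.1.2.2
  have hTS : T ≤ S := Inv.le hI
  have : Finite T := finite_of_le hTS
  refine le_of_p' hE.1.1 (hS.to_le hTS) le_rfl fun U _ hc _ α hα ho => ?_
  have hU : TC F T U := (tc_iff hI).1 hc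
  obtain ⟨U', hconj, hfn⟩ := F.exists_isFullyNormalized (hU.le.trans hTS)
  obtain ⟨f, hf⟩ := hconj.exists_isIso
  have hU' : TC F T U' := hU.of_isIso (Inv.sc hI) hf
  rw [← Inv.congrAut_mem_iff hI' hf hU.le]
  have hα' := Inv.congrAut_mem hI hf hU.le hα
  have ho' := coprime_congrAut hf ho
  generalize hf.congrAut α = α' at hα' ho'
  obtain ⟨V, hV, hUV, γ, hγ, hγo, e⟩ : ∃ V, DT F T V ∧ U' ≤ V ∧ ∃ γ ∈ BE E F V,
      (orderOf γ).Coprime p ∧ ∀ x ∈ U', equivFun γ x = equivFun α' x :=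
    ⟨_, dt_sup hTS hU' (hF.isFullyCentralized hS hfn), le_sup_left,
      exists_BE_lift hF hS hE hU' hα' ho'⟩
  have hVS : V ≤ S := hV.1.le
  have hγF : γ ∈ F.autGroup V := (mem_BE.1 hγ).1
  obtain ⟨g, hg, eg, hgQ⟩ := hQ.exists_ext (isMor_of_mem_autGroup hVS hγF)
  have hgV : F.IsIso V V g := (isIso_of_mem_autGroup hVS hγF).congr fun x hx => (eg x hx).symm
  have hVQ : F.IsIso (V ⊔ Q) (V ⊔ Q) g := IsIso.sup hg hgV hgQ
  obtain ⟨β, hβ, hβo, eβ⟩ := exists_coprime_ext (p := p) le_sup_left hVQ eg hγo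
  have hW : V ⊔ Q ≤ S := hg.le
  have h1 : β ∈ BE E F (V ⊔ Q) :=
    ((fam_BE hF hS hE).lift' hS hV le_sup_left hW hβ hβo eβ).1 hγ
  obtain ⟨δ, eδ⟩ := exists_res (le_sup_right : Q ≤ V ⊔ Q)
    (autGroup_le_stabAut hQ.stronglyClosed hW hβ)
  have hδo := coprime_of_res le_sup_right eδ hβo
  have h2 : δ ∈ BE E F Q := ((fam_BE hF hS hE).lift' hS hD le_sup_right hW hβ hβo eδ).2 h1
  have h3 : β ∈ BE E' F (V ⊔ Q) :=
    ((fam_BE hF hS hE').lift' hS hD le_sup_right hW hβ hβo eδ).1 (h δ h2 hδo)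
  have : Finite T := finite_of_le hTS
  have h4 : α' ∈ BE E' F U' := mem_BE_of_res hW (hUV.trans le_sup_left)
    (fun x hx => (eβ x (hUV hx)).trans (e x hx)) h3
  rwa [BE_of_le (Inv.sub hI') hU'.le] at h4

end Gen

section Grp
variable {G : Type*} [Group G] [Finite G] {p : ℕ} [Fact p.Prime] {S T : Subgroup G}

theorem pElt_of_conjAut (hG : Subgroup.centralizer ((pCore p G : Subgroup G) : Set G) ≤ pCore p G)
    {a : G} (ha : a ∈ Subgroup.normalizer ((pCore p G : Subgroup G) : Set G)) {k : ℕ}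
    (h : conjAut (pCore p G) ha ^ p ^ k = 1) : ∃ m, a ^ p ^ m = 1 := by
  rw [← conjAut_pow, conjAut_eq_one_iff] at h
  obtain ⟨j, hj⟩ := H1.pCore_isPGroup p G ⟨_, hG h⟩
  refine ⟨k + j, ?_⟩
  rw [pow_add, pow_mul]
  simpa using congrArg Subtype.val hj

theorem mem_norm (a : G) : a ∈ Subgroup.normalizer ((pCore p G : Subgroup G) : Set G) := by
  rw [Subgroup.normalizer_eq_top]; trivial

theorem isRadical_pCore (hS : SylowIn p S ⊤)
    (hG : Subgroup.centralizer ((pCore p G : Subgroup G) : Set G) ≤ pCore p G) :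
    (groupFusionSystem S).IsRadical p (pCore p G) := by
  have hQS : pCore p G ≤ S := by rw [← pCoreIn_top]; exact hS.pCoreIn_le
  rw [isRadical_iff_le hS.isPGroup, groupFusionSystem_autGroup hQS]
  refine ⟨hQS, fun α hα => ?_⟩
  set A := pCoreIn p (autInducedBy ⊤ (pCore p G)) with hA
  have hn : (autPre ⊤ (pCore p G) A).Normal := by
    rw [← Subgroup.normalizer_eq_top_iff, eq_top_iff]
    intro a _
    exact le_normalizer_autPre le_normalizer_pCoreIn ⟨trivial, mem_norm a⟩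
  have hp : IsPGroup p (autPre ⊤ (pCore p G) A) := by
    rintro ⟨a, -, ha, h⟩
    obtain ⟨k, hk⟩ := isPGroup_pCoreIn (p := p) (B := autInducedBy ⊤ (pCore p G)) ⟨_, h⟩
    obtain ⟨m, hm⟩ := pElt_of_conjAut hG ha (k := k) (by simpa using congrArg Subtype.val hk)
    exact ⟨m, Subtype.ext hm⟩
  obtain ⟨a, -, ha, e⟩ := mem_autInducedBy_iff'.1 (pCoreIn_le hα)
  have hαa := eq_conjAut ha e
  subst hαa
  rw [inn_eq_autInducedBy]
  exact conjAut_mem_autInducedBy (H1.le_pCore hn hp ⟨trivial, ha, hα⟩) ha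

/-- The elements of `G` acting on `O_p(G)` through the family of `E`. -/
abbrev KK (S : Subgroup G) (p : ℕ) (E : FusionSystem T) : Subgroup G :=
  autPre ⊤ (pCore p G) (BE E (groupFusionSystem S) (pCore p G))

variable (hS : SylowIn p S ⊤)
  (hG : Subgroup.centralizer ((pCore p G : Subgroup G) : Set G) ≤ pCore p G)
  {E : FusionSystem T} (hE : E.IsNormalIn (groupFusionSystem S) p)
include hS

theorem core_le : pCore p G ≤ S := by rw [← pCoreIn_top]; exact hS.pCoreIn_le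

theorem core_normal : (groupFusionSystem S).IsNormal (pCore p G) :=
  groupFusionSystem_isNormal (core_le hS)

include hG hE

theorem dt_core : DT (groupFusionSystem S) T (pCore p G) :=
  dt_of_cr hE.1.2.1 hS.isPGroup hE.1.2.2 hE.1.1
    ((core_normal hS).isCentric_iff.2 fun _ hx => hG hx.2) (isRadical_pCore hS hG)

theorem KK_normal : (KK S p E).Normal := by
  rw [← Subgroup.normalizer_eq_top_iff, eq_top_iff]
  intro a _
  refine le_normalizer_autPre ?_ ⟨trivial, mem_norm a⟩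
  rw [← groupFusionSystem_autGroup (core_le hS)]
  exact (fam_BE hE.1.2.1 hS.isPGroup hE).le_normalizer (dt_core hS hG hE)

omit hG in
theorem le_KK : T ≤ KK S p E := fun t ht => ⟨trivial, mem_norm t,
  autInducedBy_le_BE hE.1.2.2 (core_le hS) (conjAut_mem_autInducedBy ht _)⟩

theorem inf_pResIn_le : S ⊓ pResIn p (KK S p E) ≤ T := by
  have := KK_normal hS hG hE
  have h1 : SylowIn p (S ⊓ KK S p E) (KK S p E) :=
    sylowIn_inf_of_le hS le_top (by rw [Subgroup.normalizer_eq_top])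
  have h2 := group_hyp_eq h1
  have h3 : S ⊓ pResIn p (KK S p E) ≤ S ⊓ KK S p E ⊓ pResIn p (KK S p E) :=
    le_inf (inf_le_inf_left _ pResIn_le) inf_le_right
  refine h3.trans ?_
  rw [← h2, hyperfocalSubgroup_le_iff']
  intro P hP α hα ho x hx
  rw [fusionSystemOfSubgroup_autGroup _ hP] at hα
  obtain ⟨k, hk, hko, hkN, rfl⟩ := exists_coprime_of_mem_autInducedBy hα ho
  have hW : P ⊔ pCore p G ≤ S := sup_le (hP.trans inf_le_left) (core_le hS)
  have hkW : k ∈ Subgroup.normalizer ((P ⊔ pCore p G : Subgroup G) : Set G) :=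
    mem_normalizer_sup hkN (mem_norm k)
  have hβ : conjAut _ hkW ∈ (groupFusionSystem S).autGroup (P ⊔ pCore p G) := by
    rw [groupFusionSystem_autGroup hW]; exact conjAut_mem_autInducedBy (Subgroup.mem_top _) _
  have hβo : (orderOf (conjAut _ hkW)).Coprime p :=
    Nat.Coprime.coprime_dvd_left (orderOf_dvd_of_pow_eq_one
      (conjAut_pow_eq_one hkW (pow_orderOf_eq_one k))) hko
  have h4 := ((fam_BE hE.1.2.1 hS.isPGroup hE).lift' hS.isPGroup (dt_core hS hG hE) le_sup_right hW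
    hβ hβo (α := conjAut _ (mem_norm k)) fun y hy => by
      rw [equivFun_conjAut _ hy, equivFun_conjAut _ (Subgroup.mem_sup_right hy)]).1
        (conjAut_mem_of_mem_autPre hk _)
  have h5 := (mem_BE.1 h4).2.1 x (Subgroup.mem_sup_left hx)
  rwa [equivFun_conjAut _ (Subgroup.mem_sup_left hx), ← equivFun_conjAut hkN hx] at h5

theorem inf_sup_eq : S ⊓ (pResIn p (KK S p E) ⊔ T) = T := by
  refine le_antisymm (fun x hx => ?_) (le_inf (Inv.le hE.1.2.2) le_sup_right)
  rw [sup_comm] at hx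
  obtain ⟨t, ht, a, ha, rfl⟩ := (mem_sup_of_le_normalizer
    ((le_KK hS hE).trans le_normalizer_pResIn)).1 hx.2
  refine T.mul_mem ht (inf_pResIn_le hS hG hE ⟨?_, ha⟩)
  simpa using S.mul_mem (S.inv_mem (Inv.le hE.1.2.2 ht)) hx.1

theorem sup_normal : (pResIn p (KK S p E) ⊔ T).Normal := by
  have := KK_normal hS hG hE
  have h1 : SylowIn p (S ⊓ KK S p E) (KK S p E) :=
    sylowIn_inf_of_le hS le_top (by rw [Subgroup.normalizer_eq_top])
  have hsc := Inv.sc hE.1.2.2
  have hN : ∀ a ∈ Subgroup.normalizer ((S ⊓ KK S p E : Subgroup G) : Set G),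
      a ∈ Subgroup.normalizer ((pResIn p (KK S p E) ⊔ T : Subgroup G) : Set G) := by
    intro a ha
    refine mem_normalizer_sup (normalizer_le_normalizer_pResIn
      (by rw [Subgroup.normalizer_eq_top]; trivial)) (mem_normalizer_of_finite fun t ht => ?_)
    have hm : (groupFusionSystem S).IsMor T (fun x => a * x * a⁻¹) :=
      groupFusionSystem_isMor.2 ⟨hsc.le, fun x hx =>
        (conj_mem_of_mem_normalizer ha ⟨hsc.le hx, le_KK hS hE hx⟩).1, a, fun _ _ => rfl⟩
    exact hsc.map_mem hm ht ht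
  rw [← Subgroup.normalizer_eq_top_iff, eq_top_iff]
  intro g _
  obtain ⟨n, hn, hng⟩ := h1.frattini (b := g) (by rw [Subgroup.normalizer_eq_top]; trivial)
  obtain ⟨a, ha, w, hw, rfl⟩ := exists_pResIn_mul_sylow h1 hn
  have e : g = a * (w * ((a * w)⁻¹ * g)) := by group
  rw [e]
  exact Subgroup.mul_mem _ (Subgroup.le_normalizer (Subgroup.mem_sup_left ha))
    (Subgroup.mul_mem _ (hN w (Subgroup.le_normalizer hw)) (hN _ hng))

theorem le_KK_of {H : Subgroup G} [H.Normal] (hTH : T ≤ H) (hT : SylowIn p T H)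
    (e : (fusionSystemOfSubgroup H T hTH).IsSubsystemOf E) : H ≤ KK S p E := by
  intro h hh
  have hQT : pCore p G ⊓ H ≤ T := hT.le_of_le_normalizer
    ((H1.pCore_isPGroup p G).to_le inf_le_left) inf_le_right (by
      rw [Subgroup.normalizer_eq_top]; exact le_top)
  have hmod : ∀ x ∈ pCore p G, x⁻¹ * (h * x * h⁻¹) ∈ T := fun x hx => hQT
    ⟨Subgroup.mul_mem _ (Subgroup.inv_mem _ hx) (conj_mem_of_mem_normalizer (mem_norm h) hx), by
      have := H.mul_mem (Subgroup.Normal.conj_mem' inferInstance h hh x) (H.inv_mem hh)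
      simpa [mul_assoc] using this⟩
  refine ⟨trivial, mem_norm h, ⟨?_, fun x hx => ?_⟩, mem_resE_of_isMor (e.isMor ?_)⟩
  · rw [groupFusionSystem_autGroup (core_le hS)]; exact conjAut_mem_autInducedBy (Subgroup.mem_top _) _
  · rw [equivFun_conjAut _ hx]; exact hmod x hx
  · refine (fusionSystemOfSubgroup_isMor hTH).2 ⟨inf_le_right, fun x hx => ?_, h, hh,
      fun x hx => equivFun_conjAut _ hx.1⟩
    rw [equivFun_conjAut _ hx.1]
    simpa using T.mul_mem hx.2 (hmod x hx.1)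

theorem pResIn_KK_le {H : Subgroup G} [H.Normal] (hTH : T ≤ H) (hK : H ≤ KK S p E)
    (e : E.IsSubsystemOf (fusionSystemOfSubgroup H T hTH)) : pResIn p (KK S p E) ≤ H := by
  rw [pResIn_le_iff]
  intro k hk ho
  have h1 := mem_BE.1 (conjAut_mem_of_mem_autPre hk (mem_norm k))
  obtain ⟨-, -, h, hh, eh⟩ := (fusionSystemOfSubgroup_isMor hTH).1 (e.isMor h1.2.2.mor)
  have hy : k * h⁻¹ ∈ KK S p E := Subgroup.mul_mem _ hk (Subgroup.inv_mem _ (hK hh))
  have h2 := mem_BE.1 (conjAut_mem_of_mem_autPre hy (mem_norm _))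
  have h3 := mem_BE.1 (conjAut_mem_of_mem_autPre (Subgroup.inv_mem _ (hK hh)) (mem_norm _))
  obtain ⟨j, hj⟩ := exists_pow_eq_one_of_two_step (H1.pCore_isPGroup p G) (Q := T)
    (α := conjAut _ (mem_norm (k * h⁻¹))) (fun x hx hxT => by
      have hx' := h3.2.2.mapsTo x ⟨hx, hxT⟩
      rw [equivFun_conjAut _ hx] at hx'
      have := eh _ hx'
      rw [equivFun_conjAut _ hx'.1] at this
      rw [equivFun_conjAut _ hx]
      calc k * h⁻¹ * x * (k * h⁻¹)⁻¹ = k * (h⁻¹ * x * h⁻¹⁻¹) * k⁻¹ := by group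
        _ = x := by rw [this]; group) h2.2.1
  obtain ⟨m, hm⟩ := pElt_of_conjAut hG _ hj
  exact mem_of_coprime_of_pElt ho (by rw [Subgroup.normalizer_eq_top]; trivial) hm
    (by simpa [mul_assoc] using hh)

theorem eq_group {H : Subgroup G} [H.Normal] (hTH : T ≤ H) (hT : S ⊓ H = T)
    (hK : H ≤ KK S p E) (hO : pResIn p (KK S p E) ≤ H) :
    E = fusionSystemOfSubgroup H T hTH := by
  subst hT
  have hE' : (fusionSystemOfSubgroup H (S ⊓ H) hTH).IsNormalIn (groupFusionSystem S) p := by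
    rw [groupFusionSystem_eq_ofSubgroup]
    exact group_isNormalIn hS le_top (by rw [Subgroup.normalizer_eq_top])
  refine eq_of_sub_of_sub
    (sub_of_BE hE.1.2.1 hS.isPGroup hE hE' (core_normal hS) (dt_core hS hG hE) fun δ hδ ho => ?_)
    (sub_of_BE hE.1.2.1 hS.isPGroup hE' hE (core_normal hS) (dt_core hS hG hE) fun δ hδ ho => ?_)
  · obtain ⟨h1, h2, h3⟩ := mem_BE.1 hδ
    refine mem_BE.2 ⟨h1, h2, h3.of_isMor ?_⟩
    rw [groupFusionSystem_autGroup (core_le hS)] at h1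
    obtain ⟨k, -, hko, hkN, rfl⟩ := exists_coprime_of_mem_autInducedBy h1 ho
    exact (fusionSystemOfSubgroup_isMor hTH).2 ⟨inf_le_right, fun x hx => (h3.mapsTo x hx).2, k,
      hO (mem_pResIn ⟨trivial, hkN, hδ⟩ hko), fun x hx => equivFun_conjAut _ hx.1⟩
  · obtain ⟨h1, h2, h3⟩ := mem_BE.1 hδ
    refine mem_BE.2 ⟨h1, h2, h3.of_isMor ?_⟩
    obtain ⟨-, -, h, hh, eh⟩ := (fusionSystemOfSubgroup_isMor hTH).1 h3.mor
    refine (mem_BE.1 (conjAut_mem_of_mem_autPre (hK hh) (mem_norm h))).2.2.mor.congr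
      fun x hx => ?_
    rw [equivFun_conjAut _ hx.1, eh x hx]

end Grp

/-- Let G be a finite group with Sylow p-subgroup S and C_G(O_p(G)) ≤ O_p(G). For every subgroup T ≤ S and every normal subsystem E over T of the fusion system of G on S there is exactly one normal subgroup H of G containing T as a Sylow p-subgroup whose fusion system on T is E. -/
theorem result {G : Type*} [Group G] [Finite G] (p : ℕ) [Fact p.Prime] (S : Sylow p G) (hG : Subgroup.centralizer ((Cfsg.pCore p G : Subgroup G) : Set G) ≤ Cfsg.pCore p G) (T : Subgroup G) (hTS : T ≤ S) (E : Cfsg.FusionSystem T) (hE : E.IsNormalIn (Cfsg.groupFusionSystem (S : Subgroup G)) p) : ∃ H : Subgroup G, (∃ hTH : T ≤ H, H.Normal ∧ (∃ R : Sylow p H, (R : Subgroup H) = T.subgroupOf H) ∧ ∀ P : Subgroup G, E.Hom P = (Cfsg.fusionSystemOfSubgroup H T hTH).Hom P) ∧ ∀ H' : Subgroup G, (∃ hTH' : T ≤ H', H'.Normal ∧ (∃ R : Sylow p H', (R : Subgroup H') = T.subgroupOf H') ∧ ∀ P : Subgroup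 G, E.Hom P = (Cfsg.fusionSystemOfSubgroup H' T hTH').Hom P) → H' = H := by
  have hS := sylowIn_sylow S
  have := sup_normal hS hG hE
  have hH := inf_sup_eq hS hG hE
  have hsyl : SylowIn p T (pResIn p (KK (S : Subgroup G) p E) ⊔ T) := by
    have := sylowIn_inf_of_le hS (le_top (a := pResIn p (KK (S : Subgroup G) p E) ⊔ T))
      (by rw [Subgroup.normalizer_eq_top])
    rwa [hH] at this
  refine ⟨pResIn p (KK (S : Subgroup G) p E) ⊔ T, ⟨le_sup_right, inferInstance, hsyl.exists_sylow,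
    fun P => ?_⟩, ?_⟩
  · rw [← eq_group hS hG hE le_sup_right hH (sup_le pResIn_le (le_KK hS hE)) le_sup_left]
  · rintro H' ⟨hTH', hn, hR, e⟩
    have hT' : SylowIn p T H' := (sylowIn_iff_exists hTH').2 hR
    have hK := le_KK_of hS hG hE hTH' hT' fun P => (e P).ge
    refine le_antisymm ?_ (sup_le (pResIn_KK_le hS hG hE hTH' hK fun P => (e P).le) hTH')
    rw [← pResIn_sup_sylow hT']
    exact sup_le_sup_right (pResIn_mono hK) _

end Cfsg.Agent.S5121
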