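import Cfsg.Statements.S5139
import Cfsg.Agent.Lib.H8.GroupHyp
-- import your own Cfsg.Agent.* helpers here

set_option autoImplicit false
open Cfsg

namespace Cfsg.Agent.S5139

open Cfsg.FusionSystem Cfsg.Agent.H8 Cfsg.Agent.H7

/-- Let G be a finite group with Sylow p-subgroup S and O^p(G) the subgroup generated by the elements of order prime to p. Then the p-residual subsystem of the fusion system of G on S — the saturated subsystem of p-power index over the hyperfocal subgroup — is the fusion system of O^p(G) on S ∩ O^p(G): its maps are exactly the conjugation maps by elements of O^p(G) between subgroups of S ∩ O^p(G). -/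
theorem result {G : Type*} [Group G] [Finite G] (p : ℕ) [Fact p.Prime] (S : Sylow p G) (E : Cfsg.FusionSystem ((Cfsg.groupFusionSystem (S : Subgroup G)).hyperfocalSubgroup p)) (hE : (Cfsg.groupFusionSystem (S : Subgroup G)).IsPResidual p E) : ∃ h : (S : Subgroup G) ⊓ Cfsg.pResidual p G ≤ Cfsg.pResidual p G, ∀ P : Subgroup G, E.Hom P = (Cfsg.fusionSystemOfSubgroup (Cfsg.pResidual p G) ((S : Subgroup G) ⊓ Cfsg.pResidual p G) h).Hom P := by
  refine ⟨inf_le_right, fun P => ?_⟩
  have hS := sylowIn_sylow S
  have e : (groupFusionSystem (S : Subgroup G)).hyperfocalSubgroup p =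
      (S : Subgroup G) ⊓ pResidual p G := by
    rw [groupFusionSystem_eq_ofSubgroup, group_hyp_eq hS, pResIn_top]
  have hT : SylowIn p ((S : Subgroup G) ⊓ pResidual p G) (pResidual p G) :=
    sylowIn_inf_of_le hS le_top (by rw [← pResIn_top]; exact le_normalizer_pResIn)
  have h1 : (fusionSystemOfSubgroup (pResidual p G) ((S : Subgroup G) ⊓ pResidual p G) inf_le_right).HasPPowerIndexIn
      (groupFusionSystem (S : Subgroup G)) p := by
    rw [groupFusionSystem_eq_ofSubgroup]
    exact group_hasPPowerIndexIn _ _ le_top pResIn_top.le inf_le_left (by rw [pResIn_top])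
  exact hom_eq_iff.2 fun f =>
    ⟨(le_of_hasPPowerIndexIn S.2 hE.1 hE.2.1 e.le h1).isMor,
      (le_of_hasPPowerIndexIn S.2 (fusionSystemOfSubgroup_isSaturated hT) h1.1 e.ge hE.2).isMor⟩

end Cfsg.Agent.S5139
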