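import Cfsg.Statements.S5142
import Cfsg.Agent.Lib.Lead.Family4
import Cfsg.Agent.Lib.H8.PPrime
-- import your own Cfsg.Agent.* helpers here

set_option autoImplicit false
open Cfsg

namespace Cfsg.Agent.S5142

open Cfsg.FusionSystem Cfsg.Agent.H8 Cfsg.Agent.H7

/-- Let F be a saturated fusion system over a finite p-group S and E a normal subsystem of F over T. Then the p'-residual subsystem of E (the least saturated subsystem of E over T of index prime to p) is contained in every normal subsystem of F over T; together with its normality in F (the case of a weakly normal E) this makes it the least normal subsystem of F over T. -/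
theorem result {Ω : Type*} [Group Ω] {S : Subgroup Ω} [Finite S] (p : ℕ) [Fact p.Prime] (hS : IsPGroup p S) (F : Cfsg.FusionSystem S) (hF : F.IsSaturated p) {T : Subgroup Ω} (E : Cfsg.FusionSystem T) (hE : E.IsNormalIn F p) (D : Cfsg.FusionSystem T) (hD : E.IsPPrimeResidual p D) : ∀ D' : Cfsg.FusionSystem T, D'.IsNormalIn F p → D.IsSubsystemOf D' := by
  intro D' hD'
  have := finite_of_le (Inv.le hE.1.2.2)
  obtain ⟨M, -, h1, h2, -⟩ := Cfsg.Agent.Lead.exists_meet hF hS hE hD'
  have key : ∀ (U : Subgroup Ω) (N : FusionSystem U), U = T → N.IsNormalIn E p →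
      D.IsSubsystemOf N := by
    rintro U N rfl h
    exact hD.2.2 N h.1.1 (hasPrimeToPIndexIn_of_invariant hE.1.1 h.1.2.2)
  exact (key _ M (inf_idem T) h1).trans (Inv.sub h2.1.2.2)

end Cfsg.Agent.S5142
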