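import Cfsg.Statements.S5143
import Cfsg.Agent.Lib.H8.ES4
-- import your own Cfsg.Agent.* helpers here

set_option autoImplicit false
open Cfsg

namespace Cfsg.Agent.S5143

open Cfsg.FusionSystem Cfsg.Agent.H8 Cfsg.Agent.H7

/-- Let F be a saturated fusion system over a finite p-group S, E a normal subsystem over T, and R a subgroup with T ≤ R ≤ S. Then there is exactly one saturated subsystem D of F over R (exactly one family of map sets) whose p-residual subsystem is that of E: the hyperfocal subgroups of D and E coincide and the p-residual subsystems of D and of E have the same maps. -/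
theorem result {Ω : Type*} [Group Ω] {S : Subgroup Ω} [Finite S] (p : ℕ) [Fact p.Prime] (hS : IsPGroup p S) (F : Cfsg.FusionSystem S) (hF : F.IsSaturated p) {T : Subgroup Ω} (E : Cfsg.FusionSystem T) (hE : E.IsNormalIn F p) (R : Subgroup Ω) (hTR : T ≤ R) (hRS : R ≤ S) : ∃ D : Cfsg.FusionSystem R, (D.IsSaturated p ∧ D.IsSubsystemOf F ∧ D.hyperfocalSubgroup p = E.hyperfocalSubgroup p ∧ ∀ (D₁ : Cfsg.FusionSystem (D.hyperfocalSubgroup p)) (E₁ : Cfsg.FusionSystem (E.hyperfocalSubgroup p)), D.IsPResidual p D₁ → E.IsPResidual p E₁ → ∀ P : Subgroup Ω, D₁.Hom P = E₁.Hom P) ∧ ∀ D' : Cfsg.FusionSystem R, D'.IsSaturated p → D'.IsSubsystemOf F → D'.hyperfocalSubgroup p = E.hyperfocalSubgroup p → (∀ (D₁ : Cfsg.FusionSystem (D'.hyperfocalSubgroup p)) (E₁ : Cfsg.FusionSystem (E.hyperfocalSubgroup p)), D'.IsPResidual p D₁ → E.IsPResidual p E₁ → ∀ P : Subgroup Ω, D₁.Hom P = E₁.Hom P) → ∀ P : Subgroup Ω, D'.Hom P = D.Hom P := by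
  have hT := hTR.trans hRS
  have := finite_of_le hT
  have := finite_of_le hRS
  have hTp := hS.to_le hT
  have hR := hS.to_le hRS
  have hH := hyperfocalSubgroup_le E p
  have := finite_of_le hH
  obtain ⟨D, h1, h2, h3, -⟩ := exists_ES hE.1.2.1 hS hE hTR hRS
  have e := hyp_eq_of_pIndex hR h3
  obtain ⟨E₁, h4, h5⟩ := exists_pPowerIndex hE.1.1 hTp hH le_rfl
  obtain ⟨G, hG⟩ := exists_isES E₁ F p hRS
  have hn := isNormalIn_of_isPResidual hS hE ⟨h4, h5⟩
  refine ⟨D, ⟨h1, h2, e.symm, fun D₁ E₂ h6 h7 P => ?_⟩, fun D' h6 h7 h8 h9 P => ?_⟩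
  · have h8 := hasPPowerIndexIn_trans h7.2 h3 e.ge
    exact Set.Subset.antisymm (le_of_hasPPowerIndexIn hR h6.1 h6.2.1 e.ge h8 P)
      (le_of_hasPPowerIndexIn hR h7.1 h8.1 e.le h6.2 P)
  · obtain ⟨D₁, h10, h11⟩ := exists_pPowerIndex h6 hR (hyperfocalSubgroup_le D' p) le_rfl
    have h12 := h9 D₁ E₁ ⟨h10, h11⟩ ⟨h4, h5⟩
    have h13 : E₁.HasPPowerIndexIn D' p :=
      same_induction (C := fun {_} X => X.HasPPowerIndexIn D' p) (fun P => (h12 P).le)
        (fun P => (h12 P).ge) h11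
    rw [hG.eq_of_pIndex hF hS hn h7 h6 h13,
      hG.eq_of_pIndex hF hS hn h2 h1 (hasPPowerIndexIn_trans h5 h3 e.ge)]

end Cfsg.Agent.S5143
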