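import Cfsg.Statements.S5147
import Cfsg.Agent.Lib.H8.Iso
-- import your own Cfsg.Agent.* helpers here

set_option autoImplicit false
open Cfsg

namespace Cfsg.Agent.S5147

open Cfsg.FusionSystem Cfsg.Agent.H8 Cfsg.Agent.H7

/-- Let G be a finite group with Sylow 2-subgroup S whose 2-fusion system on S is constrained, and L a component of G (a subnormal quasisimple subgroup). Then the 2-fusion system of L/Z(L) on the image of S ∩ L is constrained. -/
theorem result {G : Type*} [Group G] [Finite G] (S : Sylow 2 G) (hF : (Cfsg.groupFusionSystem (S : Subgroup G)).IsConstrained 2) (L : Subgroup G) (hL : Cfsg.IsComponent L) : (Cfsg.groupFusionSystem (((S : Subgroup G).subgroupOf L).map (QuotientGroup.mk' (Subgroup.center L)))).IsConstrained 2 := by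
  obtain ⟨s, hs⟩ := group_isoVia_subtype (H := L) (S : Subgroup G)
  obtain ⟨h1, h2⟩ := group_isConstrained_of_isSubnormal (sylowIn_sylow S) hF hL.1
  have h3 := hs.isConstrained_iff.1 h2
  obtain ⟨R, hR⟩ := h1.exists_sylow
  rw [Subgroup.inf_subgroupOf_right] at hR
  rw [← hR] at h3 ⊢
  refine factor_isConstrained h3 R.2 ?_ (group_isFactorSystem R _ (QuotientGroup.mk'_surjective _))
  refine (h3.1.isCentral_iff_fixed R.2).2 ⟨inf_le_left, fun P f hf x hx hxZ => ?_⟩
  obtain ⟨-, -, g, e⟩ := groupFusionSystem_isMor.1 hf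
  have hz : x ∈ Subgroup.center L := by
    have := hxZ.2
    rwa [QuotientGroup.ker_mk'] at this
  rw [e x hx, Subgroup.mem_center_iff.1 hz g]; simp

end Cfsg.Agent.S5147
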