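import Cfsg.Statements.S5156
import Cfsg.Agent.Lib.H8.GroupSys
-- import your own Cfsg.Agent.* helpers here

set_option autoImplicit false
universe u
open Cfsg

namespace Cfsg.Agent.S5156

open Cfsg.FusionSystem Cfsg.Agent.H8 Cfsg.Agent.H7

/-- A saturated fusion system over a finite p-group has a terminating alternating chain of p'-residual and p-residual subsystems (the chain reaches the trivial system — the notion of solvability adapted to fusion systems of p-solvable groups) if and only if it is constrained and its models are p-solvable (a model is a finite group realizing the system on a Sylow p-subgroup with self-centralizing largest normal p-subgroup; it exists and is unique up to isomorphism for constrained systems). -/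
theorem result {Ω : Type u} [Group Ω] {S : Subgroup Ω} [Finite S] (p : ℕ) [Fact p.Prime] (hS : IsPGroup p S) (F : Cfsg.FusionSystem S) (hF : F.IsSaturated p) : F.HasTerminatingResidualSeries p ↔ (F.IsConstrained p ∧ ∀ (G : Type u) [Group G] (ι : S →* G), F.IsModel p G ι → Cfsg.IsPSolvable p G) := by
  constructor
  · intro h
    refine ⟨isConstrained_of_abSeries hF hS (abSeries_of_terminating h hS hF), fun G _ ι hm => ?_⟩
    have := hm.1
    obtain ⟨s, hs⟩ := hm.2.1.exists_isoVia
    exact (group_terminating_iff hm.sylowIn hm.2.2.2).1 (IsoVia.terminating h hs)
  · rintro ⟨h1, h2⟩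
    obtain ⟨G, _, ι, hm⟩ := Lead.exists_model hS h1
    have := hm.1
    obtain ⟨s, hs⟩ := hm.2.1.exists_isoVia
    exact IsoVia.terminating ((group_terminating_iff hm.sylowIn hm.2.2.2).2 (h2 G ι hm)) hs.symm

end Cfsg.Agent.S5156
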