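import Cfsg.Statements.S5160
import Cfsg.Agent.Lib.H8.Iso
-- import your own Cfsg.Agent.* helpers here

set_option autoImplicit false
open Cfsg

namespace Cfsg.Agent.S5160

open Cfsg.FusionSystem Cfsg.Agent.H8 Cfsg.Agent.H7

/-- Let G be a finite group with nontrivial Sylow p-subgroup S and F its fusion system on S. Suppose (a) no nontrivial proper subgroup of S is strongly closed in F, and (b) the automorphisms of S induced by G are generated by those induced, for R running over the fully normalized radical centric subgroups of F, by the subgroup of N_G(R) generated by its elements of p-power order. Then F is simple. -/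
theorem result {G : Type*} [Group G] [Finite G] (p : ℕ) [Fact p.Prime] (S : Sylow p G) (hS1 : (S : Subgroup G) ≠ ⊥) (ha : ∀ T : Subgroup G, (Cfsg.groupFusionSystem (S : Subgroup G)).StronglyClosed T → T = ⊥ ∨ T = (S : Subgroup G)) (hb : Cfsg.autInducedBy ⊤ (S : Subgroup G) = ⨆ (R : Subgroup G) (_ : (Cfsg.groupFusionSystem (S : Subgroup G)).IsFullyNormalized R ∧ (Cfsg.groupFusionSystem (S : Subgroup G)).IsRadical p R ∧ (Cfsg.groupFusionSystem (S : Subgroup G)).IsCentric R), Cfsg.autInducedBy (Subgroup.closure {g : G | g ∈ Subgroup.normalizer (R : Set G) ∧ ∃ k : ℕ, orderOf g = p ^ k}) (S : Subgroup G)) : (Cfsg.groupFusionSystem (S : Subgroup G)).IsSimple p := by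
  have hF := groupFusionSystem_isSaturated S
  refine hF.isSimple_of_autGroup_le hS1 ha fun D hD => ?_
  rw [groupFusionSystem_autGroup le_rfl, hb]
  refine iSup₂_le fun R ⟨_, _, hc⟩ α hα => ?_
  have hi := hasPrimeToPIndexIn_iff.1 (hasPrimeToPIndexIn_of_invariant hF hD.1.2.2)
  obtain ⟨g, hg, hn, e⟩ := mem_autInducedBy_iff'.1 hα
  have h1 : g ∈ autPre ⊤ R (D.autGroup R) := by
    refine (Subgroup.closure_le (autPre ⊤ R (D.autGroup R))).2 (fun a ha => ?_) hg
    obtain ⟨h1, k, h2⟩ := ha
    exact mem_autPre.2 ⟨trivial, h1, hi.2 R hc.le _ (by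
      rw [groupFusionSystem_autGroup hc.le]; exact conjAut_mem_autInducedBy (Subgroup.mem_top _) h1) k
      (conjAut_pow_eq_one h1 (by rw [← h2, pow_orderOf_eq_one]))⟩
  obtain ⟨-, hn', h2⟩ := h1
  have hαF : α ∈ (groupFusionSystem (S : Subgroup G)).autGroup S := by
    rw [groupFusionSystem_autGroup le_rfl]; exact autInducedBy_mono le_top _ hα
  exact (isMor_of_centric_res hF S.2 hD.1.1 hi.1 (isMor_of_mem_autGroup le_rfl hαF) R hc.le hc
    ((isMor_of_mem_autGroup hc.le h2).congr fun x hx => by
      rw [equivFun_conjAut hn' hx, e x (hc.le hx)])).mem_autGroup fun x => (equivFun_coe _ x).symm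

end Cfsg.Agent.S5160
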