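import Cfsg.Statements.S5164


set_option autoImplicit false
open Cfsg

namespace Cfsg.Agent.S5164

open Equiv
open scoped commutatorElement

theorem comm_of_lt {α : Type*} [Finite α] {p : ℕ} [hp : Fact p.Prime] (hα : Nat.card α < p ^ 2)
    (P : Subgroup (Perm α)) (hP : IsPGroup p P) (a b : P) : a * b = b * a := by
  classical
  have key : ∀ x : α, ⁅a, b⁆ ∈ MulAction.stabilizer P x := by
    intro x
    set H := MulAction.stabilizer P x with hH
    obtain ⟨k, hk⟩ := hP.index H
    have hle : H.index ≤ Nat.card α := by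
      rw [hH, MulAction.index_stabilizer]
      exact Set.ncard_le_card _
    have hk2 : k < 2 := by
      by_contra h
      have : p ^ 2 ≤ p ^ k := Nat.pow_le_pow_right hp.out.pos (by omega)
      omega
    rcases (by omega : k = 0 ∨ k = 1) with rfl | rfl
    · rw [pow_zero, Subgroup.index_eq_one] at hk
      rw [hk]; trivial
    · rw [pow_one] at hk
      have hN : H.Normal := by
        apply Subgroup.normal_of_index_eq_minFac_card
        obtain ⟨m, hm⟩ := IsPGroup.iff_card.mp hP
        have hm0 : m ≠ 0 := by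
          rintro rfl
          have := H.index_dvd_card
          rw [hk, hm, pow_zero, Nat.dvd_one] at this
          exact hp.out.one_lt.ne' this
        rw [hk, hm, hp.out.pow_minFac hm0]
      have hc : IsCyclic (P ⧸ H) := isCyclic_of_prime_card (p := p) hk
      rw [← QuotientGroup.eq_one_iff]
      have : (QuotientGroup.mk' H) ⁅a, b⁆ = 1 := by
        rw [map_commutatorElement, commutatorElement_eq_one_iff_mul_comm]
        exact (IsCyclic.isMulCommutative (α := P ⧸ H)).is_comm.comm _ _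
      exact this
  rw [← commutatorElement_eq_one_iff_mul_comm]
  ext x
  have := key x
  rw [MulAction.mem_stabilizer_iff] at this
  exact this

/-- the wreath product `C_p ≀ C_p` as a permutation group -/
def wr (p : ℕ) : Subgroup (Perm (ZMod p × ZMod p)) where
  carrier := {f | ∃ (s : ZMod p) (g : ZMod p → ZMod p), ∀ i j, f (i, j) = (i + s, j + g i)}
  one_mem' := ⟨0, 0, fun i j => by simp⟩
  mul_mem' := by
    rintro f f' ⟨s, g, h⟩ ⟨s', g', h'⟩
    refine ⟨s' + s, fun i => g' i + g (i + s'), fun i j => ?_⟩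
    rw [Perm.mul_apply, h', h, add_assoc, add_assoc]
  inv_mem' := by
    rintro f ⟨s, g, h⟩
    refine ⟨-s, fun i => - g (i - s), fun i j => ?_⟩
    rw [Perm.inv_eq_iff_eq, h]
    simp [sub_eq_add_neg]

theorem wr_isPGroup (p : ℕ) : IsPGroup p (wr p) := by
  rintro ⟨f, s, g, h⟩
  refine ⟨2, Subtype.ext ?_⟩
  have h1 : ∀ k : ℕ, ∃ g' : ZMod p → ZMod p, ∀ i j, (f ^ k) (i, j) = (i + k * s, j + g' i) := by
    intro k
    induction k with
    | zero => exact ⟨0, fun i j => by simp⟩
    | succ k ih =>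
      obtain ⟨g', hg'⟩ := ih
      refine ⟨fun i => g' i + g (i + k * s), fun i j => ?_⟩
      rw [pow_succ', Perm.mul_apply, hg', h]
      push_cast
      congr 1 <;> ring
  obtain ⟨g', hg'⟩ := h1 p
  simp only [CharP.cast_eq_zero, zero_mul, add_zero] at hg'
  have h2 : ∀ k : ℕ, ∀ i j, ((f ^ p) ^ k) (i, j) = (i, j + k * g' i) := by
    intro k
    induction k with
    | zero => intro i j; simp
    | succ k ih =>
      intro i j
      rw [pow_succ', Perm.mul_apply, ih, hg']
      push_cast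
      congr 1; ring
  ext1 ⟨i, j⟩
  show (f ^ (p ^ 2)) (i, j) = (i, j)
  rw [pow_two, pow_mul, h2]
  simp

theorem exists_noncomm_odd (p : ℕ) [hp : Fact p.Prime] (h2 : p ≠ 2) :
    ∃ P : Subgroup (Perm (ZMod p × ZMod p)), IsPGroup p P ∧ ∃ x ∈ P, ∃ y ∈ P,
      Perm.sign x = 1 ∧ Perm.sign y = 1 ∧ x * y ≠ y * x := by
  have hs : ∀ x ∈ wr p, Perm.sign x = 1 := by
    intro x hx
    obtain ⟨k, hk⟩ := wr_isPGroup p ⟨x, hx⟩
    have hk' : x ^ p ^ k = 1 := congrArg Subtype.val hk
    have := congrArg Perm.sign hk'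
    rw [map_pow, map_one] at this
    rcases Int.units_eq_one_or (Perm.sign x) with h | h
    · exact h
    · rw [h, Odd.neg_one_pow ((hp.out.odd_of_ne_two h2).pow)] at this
      exact absurd this (by decide)
  let a : Perm (ZMod p × ZMod p) := Equiv.prodCongr (Equiv.addRight 1) (Equiv.refl _)
  let b : Perm (ZMod p × ZMod p) := Equiv.prodShear (Equiv.refl _) (fun i => Equiv.addRight i)
  have ha : a ∈ wr p := ⟨1, 0, fun i j => by simp [a]⟩
  have hb : b ∈ wr p := ⟨0, id, fun i j => by simp [b, Equiv.prodShear]⟩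
  refine ⟨wr p, wr_isPGroup p, a, ha, b, hb, hs a ha, hs b hb, fun h => ?_⟩
  have := congrArg (fun f : Perm (ZMod p × ZMod p) => (f (0, 0)).2) h
  simp [a, b, Equiv.prodShear] at this

theorem exists_noncomm_two :
    ∃ P : Subgroup (Perm (Fin 6)), IsPGroup 2 P ∧ ∃ x ∈ P, ∃ y ∈ P,
      Perm.sign x = 1 ∧ Perm.sign y = 1 ∧ x * y ≠ y * x := by
  let a : Perm (Fin 6) := swap 0 1 * swap 1 2 * swap 2 3 * swap 4 5
  let b : Perm (Fin 6) := swap 0 2 * swap 4 5
  have ha : a ^ 2 ^ 2 = 1 := by decide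
  have hb : b ^ 2 ^ 1 = 1 := by decide
  have hab : b * a * b⁻¹ = a⁻¹ := by decide
  have hbb : b⁻¹ = b := by decide
  have hpa : IsPGroup 2 (Subgroup.zpowers a) := by
    obtain ⟨k, -, hk⟩ := (Nat.dvd_prime_pow Nat.prime_two).mp (orderOf_dvd_of_pow_eq_one ha)
    exact IsPGroup.of_card (n := k) (by rw [Nat.card_zpowers, hk])
  have hpb : IsPGroup 2 (Subgroup.zpowers b) := by
    obtain ⟨k, -, hk⟩ := (Nat.dvd_prime_pow Nat.prime_two).mp (orderOf_dvd_of_pow_eq_one hb)
    exact IsPGroup.of_card (n := k) (by rw [Nat.card_zpowers, hk])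
  have hn : Subgroup.zpowers b ≤ Subgroup.normalizer (Subgroup.zpowers a : Set (Perm (Fin 6))) := by
    rw [Subgroup.zpowers_le, Subgroup.mem_normalizer_iff]
    have hh : ∀ g ∈ Subgroup.zpowers a, b * g * b⁻¹ ∈ Subgroup.zpowers a := by
      rintro g ⟨k, rfl⟩
      refine ⟨-k, ?_⟩
      show a ^ (-k) = b * a ^ k * b⁻¹
      rw [← conj_zpow, hab, inv_zpow']
    intro g
    refine ⟨hh g, fun h => ?_⟩
    have := hh _ h
    rw [hbb] at this
    have e : b * (b * g * b) * b = g := by
      have : b * b = 1 := by decide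
      calc b * (b * g * b) * b = (b * b) * g * (b * b) := by group
        _ = g := by rw [this]; simp
    rwa [e] at this
  refine ⟨Subgroup.zpowers a ⊔ Subgroup.zpowers b, hpa.to_sup_of_normal_left' hpb hn, a,
    Subgroup.mem_sup_left (Subgroup.mem_zpowers a), b, Subgroup.mem_sup_right (Subgroup.mem_zpowers b),
    ?_, ?_, by decide⟩
  · simp [a, Perm.sign_swap]
  · simp [b, Perm.sign_swap]

theorem not_comm_of {α : Type*} [Fintype α] [DecidableEq α] {n p : ℕ} [Fact p.Prime]
    (hα : Fintype.card α ≤ n)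
    (h : ∃ P : Subgroup (Perm α), IsPGroup p P ∧ ∃ x ∈ P, ∃ y ∈ P,
      Perm.sign x = 1 ∧ Perm.sign y = 1 ∧ x * y ≠ y * x)
    (S : Sylow p (alternatingGroup (Fin n))) : ¬ IsMulCommutative S := by
  classical
  intro hS
  obtain ⟨P, hP, x, hx, y, hy, sx, sy, hxy⟩ := h
  obtain ⟨ι⟩ : Nonempty (α ↪ Fin n) := Function.Embedding.nonempty_of_card_le (by simpa using hα)
  let φ := Perm.viaEmbeddingHom ι
  have hs : ∀ z : Perm α, Perm.sign z = 1 → φ z ∈ alternatingGroup (Fin n) := by
    intro z hz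
    rw [Perm.mem_alternatingGroup, ← hz]
    show Perm.sign (Perm.viaEmbedding z ι) = _
    unfold Perm.viaEmbedding
    convert Perm.sign_extendDomain z _
  have hQ : IsPGroup p ((P.map φ).subgroupOf (alternatingGroup (Fin n))) :=
    (hP.map φ).comap_subtype
  obtain ⟨Q, hQ'⟩ := hQ.exists_le_sylow
  let e := Sylow.equiv Q S
  have hx' : (⟨φ x, hs x sx⟩ : alternatingGroup (Fin n)) ∈ Q :=
    hQ' (show φ x ∈ P.map φ from ⟨x, hx, rfl⟩)
  have hy' : (⟨φ y, hs y sy⟩ : alternatingGroup (Fin n)) ∈ Q :=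
    hQ' (show φ y ∈ P.map φ from ⟨y, hy, rfl⟩)
  have := hS.is_comm.comm (e ⟨_, hx'⟩) (e ⟨_, hy'⟩)
  rw [← map_mul, ← map_mul] at this
  have h2 := congrArg (fun z : Q => ((z : alternatingGroup (Fin n)) : Perm (Fin n))) (e.injective this)
  apply hxy
  apply Perm.viaEmbeddingHom_injective ι
  rw [map_mul, map_mul]
  exact h2

/-- For n ≥ 6 and a prime p, a nontrivial Sylow p-subgroup of the alternating group of degree n is abelian if and only if n < p². -/
theorem result (n p : ℕ) (hn : 6 ≤ n) [Fact p.Prime] (S : Sylow p (alternatingGroup (Fin n))) (hS : (S : Subgroup (alternatingGroup (Fin n))) ≠ ⊥) : IsMulCommutative S ↔ n < p ^ 2 := by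
  have hp : p.Prime := Fact.out
  constructor
  · intro h
    by_contra hlt
    push Not at hlt
    by_cases h2 : p = 2
    · subst h2
      exact not_comm_of (α := Fin 6) (by simpa using hn) exists_noncomm_two S h
    · refine not_comm_of (α := ZMod p × ZMod p) ?_ (exists_noncomm_odd p h2) S h
      simpa [pow_two] using hlt
  · intro h
    let P : Subgroup (Equiv.Perm (Fin n)) := (S : Subgroup (alternatingGroup (Fin n))).map (Subgroup.subtype _)
    have hP : IsPGroup p P := S.isPGroup'.map _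
    refine ⟨⟨fun a b => ?_⟩⟩
    have := comm_of_lt (by simpa using h) P hP ⟨_, a, a.2, rfl⟩ ⟨_, b, b.2, rfl⟩
    have h2 := congrArg Subtype.val this
    exact Subtype.ext (Subtype.ext h2)

end Cfsg.Agent.S5164
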