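import Cfsg.Statements.S5311
import Cfsg.Agent.Lib.Lead.Layer

set_option autoImplicit false
open Cfsg

namespace Cfsg.Agent.S5311

/-- The layer of a saturated fusion system F over a finite p-group S is characteristic in F: for every automorphism α of S that is an automorphism of F (α and its inverse are morphisms from F to F) and every layer E of F over T, α carries T onto T and, for every map φ of E with source P, the map induced by α on α(P) (that is, α ∘ φ ∘ α⁻¹) is a map of E. -/
theorem result {Ω : Type*} [Group Ω] {S : Subgroup Ω} [Finite S] (p : ℕ) [Fact p.Prime] (hS : IsPGroup p S) (F : Cfsg.FusionSystem S) (hF : F.IsSaturated p)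
    (α : ↥S ≃* ↥S) (hα : F.IsMorphism F (S.subtype.comp α.toMonoidHom))
    (hα' : F.IsMorphism F (S.subtype.comp α.symm.toMonoidHom))
    {T : Subgroup Ω} (E : Cfsg.FusionSystem T) (hE : E.IsLayerOf F p) :
    Cfsg.FusionSystem.imageAlong (S.subtype.comp α.toMonoidHom) T = T ∧
      ∀ (P : Subgroup Ω) (φ : ↥P →* Ω), φ ∈ E.Hom P →
        ∀ φ' : ↥(Cfsg.FusionSystem.imageAlong (S.subtype.comp α.toMonoidHom) P) →* Ω,
          Cfsg.FusionSystem.InducedAlong (S.subtype.comp α.toMonoidHom) φ φ' →
            φ' ∈ E.Hom (Cfsg.FusionSystem.imageAlong (S.subtype.comp α.toMonoidHom) P) := by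
  open Cfsg.FusionSystem Cfsg.Agent.H7 Cfsg.Agent.H8 Cfsg.Agent.Lead in
  have e1 : ∀ x ∈ S, homFun (S.subtype.comp α.toMonoidHom) x = equivFun α x := fun x hx => by
    rw [homFun_of_mem _ hx, equivFun_of_mem _ hx]; rfl
  have e2 : ∀ x ∈ S, homFun (S.subtype.comp α.symm.toMonoidHom) x = equivFun α.symm x :=
    fun x hx => by rw [homFun_of_mem _ hx, equivFun_of_mem _ hx]; rfl
  have hi : F.IsoVia F (equivFun α) (equivFun α.symm) := by
    refine ⟨GrpIso.of_equiv α, fun P f hf => ?_, fun P f hf => ?_⟩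
    · obtain ⟨f', hf', e⟩ := (isMorphism_iff.1 hα).2 P f hf
      rw [img_congr fun x hx => e1 x (hf.le hx)] at hf'
      refine hf'.congr fun y hy => ?_
      obtain ⟨x, hx, rfl⟩ := ((GrpIso.of_equiv α).mem_img hf.le).1 hy
      rw [equivFun_symm_apply _ (hf.le hx), ← e1 x (hf.le hx), e x hx, e1 _ (hf.mem hx)]
    · obtain ⟨f', hf', e⟩ := (isMorphism_iff.1 hα').2 P f hf
      rw [img_congr fun x hx => e2 x (hf.le hx)] at hf'
      refine hf'.congr fun y hy => ?_
      obtain ⟨x, hx, rfl⟩ := ((GrpIso.of_equiv α).symm.mem_img hf.le).1 hy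
      rw [equivFun_apply_symm _ (hf.le hx), ← e2 x (hf.le hx), e x hx, e2 _ (hf.mem hx)]
  have hEE := IsLayerOf.isoVia hE hi
  have hT := Inv.le hE.1.1.2.2
  refine ⟨?_, fun P φ hφ φ' h => ?_⟩
  · rw [imageAlong_eq_img _ hT, img_congr fun x hx => e1 x (hT hx), hEE.img_top]
  · have hf := isMor_of_mem_Hom hφ
    have hP := hf.le.trans hT
    obtain ⟨-, -, -, e⟩ := (inducedAlong_iff (f := homFun φ) (f' := homFun φ')
      (fun x => (homFun_coe φ x).symm) (fun x => (homFun_coe φ' x).symm)).1 h
    rw [mem_Hom_iff]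
    have := hEE.isMor_of_induced hf (f' := homFun φ') fun x hx => by
      rw [← e1 x (hP hx), e x hx, e1 _ (hT (hf.mem hx))]
    have e3 : imageAlong (S.subtype.comp α.toMonoidHom) P = img P (equivFun α) := by
      rw [imageAlong_eq_img _ hP, img_congr fun x hx => e1 x (hP hx)]
    exact this.mono e3.le

end Cfsg.Agent.S5311
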